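/-
Uniqueness of the Steiner system S(5,6,12), by checking the search tree.
-/
import Cfsg.Agent.Steiner.Count
import Cfsg.Agent.Steiner.Hex12Data

set_option autoImplicit false

namespace CfsgLib.Steiner.Twelve

open Cfsg CfsgLib.Golay

/-- The bit mask of a set of labels. -/
def mask12 (s : Finset (Fin 12)) : ℕ := Nat.ofBits fun i => decide (i ∈ s)

/-- The set of labels of a mask. -/
def set12 (m : ℕ) : Finset (Fin 12) := Finset.univ.filter fun i => m.testBit i.val

/-- Weight. -/
def pc (m : ℕ) : ℕ := popAux 12 m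

theorem testBit_mask12 (s : Finset (Fin 12)) (i : Fin 12) :
    (mask12 s).testBit i.val = decide (i ∈ s) := by
  rw [mask12, Nat.testBit_ofBits_lt _ _ i.isLt]

theorem mask12_lt (s : Finset (Fin 12)) : mask12 s < 2 ^ 12 := Nat.ofBits_lt_two_pow _

theorem set12_mask12 (s : Finset (Fin 12)) : set12 (mask12 s) = s := by
  ext i; simp [set12, testBit_mask12]

theorem mask12_injective : Function.Injective mask12 := Function.LeftInverse.injective set12_mask12

theorem mem_set12 {m : ℕ} {i : Fin 12} : i ∈ set12 m ↔ m.testBit i.val = true := by simp [set12]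

theorem mask12_set12 {m : ℕ} (h : m < 2 ^ 12) : mask12 (set12 m) = m := by
  refine Nat.eq_of_testBit_eq fun j => ?_
  rcases lt_or_ge j 12 with hj | hj
  · rw [show j = (⟨j, hj⟩ : Fin 12).val from rfl, testBit_mask12]
    simp [set12]
  · rw [Nat.testBit_lt_two_pow (lt_of_lt_of_le (mask12_lt _) (Nat.pow_le_pow_right (by omega) hj)),
      Nat.testBit_lt_two_pow (lt_of_lt_of_le h (Nat.pow_le_pow_right (by omega) hj))]

theorem card_set12 (m : ℕ) : (set12 m).card = pc m := by rw [pc, popAux_eq]; rfl

theorem set12_and (a b : ℕ) : set12 (a &&& b) = set12 a ∩ set12 b := by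
  ext i; simp [set12, Nat.testBit_and]

theorem set12_compl (a : ℕ) : set12 (4095 ^^^ a) = (set12 a)ᶜ := by
  ext i
  have : Nat.testBit 4095 i.val = true := by revert i; decide
  simp [set12, Nat.testBit_xor, this]

theorem set12_insert (s : ℕ) (x : Fin 12) (h : s.testBit x.val = false) :
    set12 (s ^^^ 2 ^ x.val) = insert x (set12 s) := by
  ext i
  simp only [mem_set12, Nat.testBit_xor, Nat.testBit_two_pow, Finset.mem_insert]
  by_cases e : i = x
  · subst e; simp [h]
  · simp [e, show ¬ x.val = i.val from fun h' => e (Fin.ext h'.symm)]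

/-- Excluded intersection sizes. -/
def clash (a b : ℕ) : Bool := clashSet.testBit (a &&& b)

theorem clashSet_ok : (List.range 4096).all (fun v =>
    !(clashSet.testBit v) || Nat.beq (pc v) 1 || Nat.beq (pc v) 5) = true := by decide +kernel

theorem clashSet_lt : clashSet < 2 ^ 4096 := by decide +kernel

/-- A table of the twelve labels. -/
def okTab (g : List ℕ) : Bool :=
  Nat.beq g.length 12 && g.all (fun x => Nat.blt x 12) && (List.range 12).all fun j => g.contains j

/-- The image of a mask. -/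
def act12 (g : List ℕ) (m : ℕ) : ℕ := apMask (g.map fun i => 2 ^ i) m

/-- A leaf: the relabelling carries every model block to a known one. -/
def leafOk (i N : ℕ) : Bool :=
  okTab (tabs.getD i []) && hexList.all fun h => N.testBit (act12 (tabs.getD i []) h)

/-- The completions of a five-set. -/
def completions (s : ℕ) : List ℕ :=
  ((List.range 12).filter fun x => !(s.testBit x)).map fun x => s ^^^ 2 ^ x

/-- Excluded completions carry a valid conflict; returns the others. -/
def split (N : ℕ) : List ℕ → ℕ → Option (List ℕ)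
  | [], _ => some []
  | n :: r, code => match split N r (code / 4096) with
    | none => none
    | some l => bif Nat.beq (code % 4096) 0 then some (n :: l)
      else bif N.testBit (code % 4096) && clash n (code % 4096) then some l
      else none

/-- Add a block and its complement. -/
def addBlock (N n : ℕ) : ℕ := N ||| 2 ^ n ||| 2 ^ (4095 ^^^ n)

mutual
/-- The checker. -/
def chk : Tree → ℕ → Bool
  | .done i, N => leafOk i N
  | .pick s code kids, N => Nat.blt s 4096 && Nat.beq (pc s) 5 &&
    match split N (completions s) code with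
    | none => false
    | some l => chkKids kids l N
/-- The checker on surviving completions. -/
def chkKids : Forest → List ℕ → ℕ → Bool
  | .nil, l, _ => l.isEmpty
  | .cons t r, l, N => match l with
    | [] => false
    | n :: l' => chk t (addBlock N n) && chkKids r l' N
end

theorem root_ok : chk root start = true := by decide +kernel

theorem start_ok : (start == (2 ^ 63 ||| 2 ^ (4095 ^^^ 63) ||| 2 ^ 207 ||| 2 ^ (4095 ^^^ 207) |||
    2 ^ 783 ||| 2 ^ (4095 ^^^ 783) ||| 2 ^ 3087 ||| 2 ^ (4095 ^^^ 3087))) = true := by decide +kernel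

/-- The model system. -/
def hexads12 : Set (Finset (Fin 12)) := {s | mask12 s ∈ hexList}

/-- A relabelling onto the model. -/
def Good (B : Set (Finset (Fin 12))) : Prop :=
  ∃ e : Fin 12 ≃ Fin 12, (fun b => b.image e) '' hexads12 = B

variable {B : Set (Finset (Fin 12))}

theorem no_clash (hB : IsSteinerSystem 5 6 B) {a b : ℕ} (ha : set12 a ∈ B) (hb : set12 b ∈ B) :
    clash a b = false := by
  obtain ⟨-, h1, -, -, -, h5, -⟩ := meet_12 hB (Fintype.card_fin 12) hb
  have hp := meet_pos (Y := set12 b) ha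
  rw [← set12_and, card_set12] at hp
  rw [Bool.eq_false_iff]
  intro h
  have hlt : a &&& b < 4096 := by
    by_contra hc
    have hlt' := Nat.testBit_lt_two_pow (lt_of_lt_of_le clashSet_lt
      (Nat.pow_le_pow_right (by omega) (not_lt.1 hc)))
    rw [clash, hlt'] at h
    simp at h
  have hk := clashSet_ok
  simp only [List.all_eq_true, List.mem_range, Bool.or_eq_true, Bool.not_eq_true', Nat.beq_eq] at hk
  rcases hk _ hlt with (h' | h') | h'
  · rw [clash, h'] at h; simp at h
  · rw [h', h1] at hp; omega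
  · rw [h', h5] at hp; omega

theorem compl_mem (hB : IsSteinerSystem 5 6 B) {b : Finset (Fin 12)} (hb : b ∈ B) : bᶜ ∈ B := by
  have h := (meet_12 hB (Fintype.card_fin 12) hb).1
  rw [meet, Finset.card_eq_one] at h
  obtain ⟨c, hc⟩ := h
  have hm := hc.symm ▸ Finset.mem_singleton_self c
  rw [Finset.mem_filter, mem_blocks, Finset.card_eq_zero] at hm
  have : c = bᶜ := by
    refine Finset.eq_of_subset_of_card_le (fun x hx => Finset.mem_compl.2 fun hxb => ?_) ?_
    · have : x ∈ c ∩ b := Finset.mem_inter.2 ⟨hx, hxb⟩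
      rw [hm.2] at this
      simp at this
    · rw [Finset.card_compl, Fintype.card_fin, hB.1 b hb, hB.1 c hm.1]
  exact this ▸ hm.1

theorem hexList_facts : hexList.all (fun m => Nat.blt m 4096) = true ∧ hexList.Nodup ∧ hexList.length = 132 :=
  ⟨by decide +kernel, by decide +kernel, by decide +kernel⟩

theorem ncard_hexads12 : hexads12.ncard = 132 := by
  obtain ⟨h1, h2, h3⟩ := hexList_facts
  simp only [List.all_eq_true, Nat.blt_eq] at h1
  have e : hexads12 = set12 '' ↑hexList.toFinset := by
    ext s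
    simp only [hexads12, Set.mem_ofPred_eq, Set.mem_image, List.coe_toFinset]
    exact ⟨fun h => ⟨_, h, set12_mask12 s⟩, by rintro ⟨m, hm, rfl⟩; rwa [mask12_set12 (h1 m hm)]⟩
  rw [e, Set.InjOn.ncard_image, Set.ncard_coe_finset, List.toFinset_card_of_nodup h2, h3]
  intro x hx y hy hxy
  simp only [List.coe_toFinset, Set.mem_ofPred_eq] at hx hy
  rw [← mask12_set12 (h1 x hx), hxy, mask12_set12 (h1 y hy)]

theorem ncard_blocks (hB : IsSteinerSystem 5 6 B) : B.ncard = 132 := by
  have h := card_containing hB (X := (∅ : Finset (Fin 12))) (by simp)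
  simp [Nat.choose_eq_descFactorial_div_factorial, Nat.descFactorial_succ, Nat.factorial] at h
  rw [Set.ncard_eq_toFinset_card _ (Set.toFinite B)]
  unfold blocks at h
  omega

theorem leaf_good (hB : IsSteinerSystem 5 6 B) {i N : ℕ}
    (hk : ∀ k, N.testBit k = true → set12 k ∈ B) (h : leafOk i N = true) : Good B := by
  simp only [leafOk, okTab, Bool.and_eq_true, List.all_eq_true, List.contains_iff_mem,
    Nat.beq_eq, Nat.blt_eq, List.mem_range] at h
  obtain ⟨⟨⟨hl, hlt⟩, hsur⟩, hh⟩ := h
  set g := tabs.getD i [] with hg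
  let f : Fin 12 → Fin 12 := fun x => ⟨g[x.val]'(by omega), hlt _ (List.getElem_mem _)⟩
  have hf : Function.Bijective f := by
    refine Finite.surjective_iff_bijective.1 fun y => ?_
    obtain ⟨x, hx, e⟩ := List.getElem_of_mem (hsur y.val y.isLt)
    exact ⟨⟨x, by omega⟩, Fin.ext e⟩
  refine ⟨Equiv.ofBijective f hf, ?_⟩
  refine Set.eq_of_subset_of_ncard_le ?_ ?_ (Set.toFinite _)
  swap
  · rw [Set.ncard_image_of_injective _ (Finset.image_injective (Equiv.injective _)), ncard_hexads12,
      ncard_blocks hB]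
  rintro _ ⟨s, hs, rfl⟩
  have he : set12 (act12 g (mask12 s)) = s.image (Equiv.ofBijective f hf) := by
    ext y
    rw [mem_set12, act12, testBit_apMask, Finset.mem_image]
    simp only [List.getElem_map, Nat.testBit_two_pow, decide_eq_true_eq]
    constructor
    · rintro ⟨⟨x, hx⟩, h1, h2⟩
      have hx' : x < 12 := by simpa [hl] using hx
      refine ⟨⟨x, hx'⟩, ?_, Fin.ext h2⟩
      have h3 := testBit_mask12 s ⟨x, hx'⟩
      simp only at h1 h3
      rw [h3] at h1
      simpa using h1
    · rintro ⟨x, hx, rfl⟩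
      exact ⟨⟨x.val, by simp [hl]⟩, by simp [testBit_mask12, hx], rfl⟩
  show s.image (Equiv.ofBijective f hf) ∈ B
  rw [← he]
  exact hk _ (hh _ hs)

theorem testBit_addBlock (hB : IsSteinerSystem 5 6 B) {N n : ℕ}
    (hk : ∀ k, N.testBit k = true → set12 k ∈ B) (hn : set12 n ∈ B) :
    ∀ k, (addBlock N n).testBit k = true → set12 k ∈ B := by
  intro k h
  simp only [addBlock, Nat.testBit_or, Bool.or_eq_true, Nat.testBit_two_pow, decide_eq_true_eq] at h
  rcases h with (h | h) | h
  · exact hk k h
  · exact h ▸ hn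
  · rw [← h, set12_compl]; exact compl_mem hB hn

theorem split_sound (hB : IsSteinerSystem 5 6 B) {N : ℕ}
    (hk : ∀ k, N.testBit k = true → set12 k ∈ B) : ∀ (ns : List ℕ) (code : ℕ) (l : List ℕ),
      split N ns code = some l → ∀ n ∈ ns, set12 n ∈ B → n ∈ l
  | [], _, _, _, n, hn, _ => by simp at hn
  | a :: r, code, l, hs, n, hn, hnB => by
    cases hr : split N r (code / 4096) with
    | none => simp [split, hr] at hs
    | some l0 =>
      have ih := split_sound hB hk r (code / 4096) l0 hr
      simp only [split, hr] at hs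
      cases h0 : Nat.beq (code % 4096) 0 <;> rw [h0] at hs
      · rw [cond_false] at hs
        cases hw : (N.testBit (code % 4096) && clash a (code % 4096)) <;> rw [hw] at hs
        · simp at hs
        · rw [cond_true, Option.some_inj] at hs
          subst hs
          rcases List.mem_cons.1 hn with rfl | hn
          · exfalso
            rw [Bool.and_eq_true] at hw
            rw [no_clash hB hnB (hk _ hw.1)] at hw
            simp at hw
          · exact ih n hn hnB
      · rw [cond_true, Option.some_inj] at hs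
        subst hs
        rcases List.mem_cons.1 hn with rfl | hn
        · exact List.mem_cons_self
        · exact List.mem_cons_of_mem _ (ih n hn hnB)

mutual
theorem chk_sound (hB : IsSteinerSystem 5 6 B) : ∀ (t : Tree) (N : ℕ),
    (∀ k, N.testBit k = true → set12 k ∈ B) → chk t N = true → Good B
  | .done i, N, hk, h => leaf_good hB hk (by simpa [chk] using h)
  | .pick s code kids, N, hk, h => by
    simp only [chk, Bool.and_eq_true, Nat.blt_eq, Nat.beq_eq] at h
    obtain ⟨⟨hs, h5⟩, hm⟩ := h
    cases hsp : split N (completions s) code with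
    | none => rw [hsp] at hm; simp at hm
    | some l =>
      rw [hsp] at hm
      obtain ⟨b, ⟨hb, hsb⟩, -⟩ := hB.2 (set12 s) (by rw [card_set12, h5])
      have hc := hB.1 b hb
      obtain ⟨x, hxb, hxs⟩ := Finset.exists_mem_notMem_of_card_lt_card (s := set12 s) (t := b)
        (by rw [card_set12, h5, hc]; omega)
      have hxs' : s.testBit x.val = false := by simpa [mem_set12] using hxs
      have heq : insert x (set12 s) = b :=
        Finset.eq_of_subset_of_card_le (Finset.insert_subset hxb hsb)
          (by rw [Finset.card_insert_of_notMem hxs, card_set12, h5, hc])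
      have hn : set12 (s ^^^ 2 ^ x.val) ∈ B := by rw [set12_insert s x hxs', heq]; exact hb
      have hmem : s ^^^ 2 ^ x.val ∈ completions s := by
        simp only [completions, List.mem_map, List.mem_filter, List.mem_range, Bool.not_eq_true']
        exact ⟨x.val, ⟨x.isLt, hxs'⟩, rfl⟩
      exact kids_sound hB kids l N hk hm ⟨_, split_sound hB hk _ _ _ hsp _ hmem hn, hn⟩
theorem kids_sound (hB : IsSteinerSystem 5 6 B) : ∀ (f : Forest) (l : List ℕ) (N : ℕ),
    (∀ k, N.testBit k = true → set12 k ∈ B) → chkKids f l N = true →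
      (∃ n ∈ l, set12 n ∈ B) → Good B
  | .nil, l, _, _, h, ⟨n, hn, _⟩ => by
    simp only [chkKids, List.isEmpty_iff] at h
    rw [h] at hn
    simp at hn
  | .cons t r, [], _, _, h, _ => by simp [chkKids] at h
  | .cons t r, a :: l', N, hk, h, ⟨n, hn, hnB⟩ => by
    simp only [chkKids, Bool.and_eq_true] at h
    rcases List.mem_cons.1 hn with e | hn
    · subst e
      exact chk_sound hB t _ (testBit_addBlock hB hk hnB) h.1
    · exact kids_sound hB r l' N hk h.2 ⟨n, hn, hnB⟩
end

/-- Every S(5,6,12) is the model, relabelled. -/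
theorem iso12 {α : Type*} [Fintype α] [DecidableEq α] {B : Set (Finset α)}
    (hB : IsSteinerSystem 5 6 B) (hα : Fintype.card α = 12) :
    ∃ e : Fin 12 ≃ α, (fun b => b.image e) '' hexads12 = B := by
  classical
  obtain ⟨s5, -, hs5⟩ := Finset.exists_subset_card_eq (s := (Finset.univ : Finset α)) (n := 5)
    (by rw [Finset.card_univ, hα]; omega)
  obtain ⟨b0, ⟨hb0, -⟩, -⟩ := hB.2 s5 hs5
  have hb6 := hB.1 b0 hb0
  obtain ⟨T, hT, hTc⟩ := Finset.exists_subset_card_eq (s := b0) (n := 4) (by omega)
  obtain ⟨T0, hT0, hT0c⟩ := Finset.exists_subset_card_eq (s := T) (n := 2) (by omega)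
  -- blocks through `T` and one more point
  have through : ∀ u, u ∉ T → ∃ d, d ∈ B ∧ T ⊆ d ∧ u ∈ d := fun u hu => by
    obtain ⟨d, ⟨hd, hsd⟩, -⟩ := hB.2 (insert u T) (by rw [Finset.card_insert_of_notMem hu, hTc])
    exact ⟨d, hd, (Finset.insert_subset_iff.1 hsd).2, (Finset.insert_subset_iff.1 hsd).1⟩
  have pair : ∀ d, d ∈ B → T ⊆ d → (d \ T).card = 2 := fun d hd hTd => by
    rw [Finset.card_sdiff_of_subset hTd, hB.1 d hd, hTc]
  have disj : ∀ c d, c ∈ B → d ∈ B → T ⊆ c → T ⊆ d → c ≠ d → Disjoint (c \ T) (d \ T) := by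
    intro c d hc hd hTc' hTd hne
    refine Finset.disjoint_left.2 fun x hx hx' => hne ?_
    rw [Finset.mem_sdiff] at hx hx'
    refine (hB.2 (insert x T) (by rw [Finset.card_insert_of_notMem hx.2, hTc])).unique
      ⟨hc, Finset.insert_subset hx.1 hTc'⟩ ⟨hd, Finset.insert_subset hx'.1 hTd⟩
  have outside : ∀ s : Finset α, s.card < 12 → ∃ u, u ∉ s := fun s hs => by
    by_contra h
    push Not at h
    have := Finset.card_le_card (fun x _ => h x : Finset.univ ⊆ s)
    rw [Finset.card_univ, hα] at this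
    omega
  obtain ⟨u1, hu1⟩ := outside b0 (by omega)
  obtain ⟨d1, hd1, hT1, hu1d⟩ := through u1 fun h => hu1 (hT h)
  obtain ⟨u2, hu2⟩ := outside (b0 ∪ d1) (by
    have := Finset.card_union_add_card_inter b0 d1
    have := Finset.card_le_card (Finset.subset_inter hT hT1)
    have := hB.1 d1 hd1
    omega)
  rw [Finset.mem_union, not_or] at hu2
  obtain ⟨d2, hd2, hT2, hu2d⟩ := through u2 fun h => hu2.1 (hT h)
  obtain ⟨u3, hu3⟩ := outside (b0 ∪ (d1 \ T) ∪ (d2 \ T)) (by
    have := Finset.card_union_le (b0 ∪ (d1 \ T)) (d2 \ T)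
    have := Finset.card_union_le b0 (d1 \ T)
    have := pair d1 hd1 hT1
    have := pair d2 hd2 hT2
    omega)
  simp only [Finset.mem_union, Finset.mem_sdiff, not_or] at hu3
  have hu3T : u3 ∉ T := fun h => hu3.1.1 (hT h)
  obtain ⟨d3, hd3, hT3, hu3d⟩ := through u3 hu3T
  have n01 : b0 ≠ d1 := fun e => hu1 (e ▸ hu1d)
  have n02 : b0 ≠ d2 := fun e => hu2.1 (e ▸ hu2d)
  have n03 : b0 ≠ d3 := fun e => hu3.1.1 (e ▸ hu3d)
  have n12 : d1 ≠ d2 := fun e => hu2.2 (e ▸ hu2d)
  have n13 : d1 ≠ d3 := fun e => hu3.1.2 ⟨e ▸ hu3d, hu3T⟩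
  have n23 : d2 ≠ d3 := fun e => hu3.2 ⟨e ▸ hu3d, hu3T⟩
  let P : Fin 6 → Finset α := ![T0, T \ T0, b0 \ T, d1 \ T, d2 \ T, d3 \ T]
  have hP2 : ∀ k, (P k).card = 2 := by
    have hc1 : (T \ T0).card = 2 := by rw [Finset.card_sdiff_of_subset hT0, hTc, hT0c]
    intro k
    fin_cases k <;> simp [P, hT0c, hc1, pair b0 hb0 hT, pair d1 hd1 hT1, pair d2 hd2 hT2, pair d3 hd3 hT3]
  have hPd : ∀ k l, k ≠ l → Disjoint (P k) (P l) := by
    have hTd : ∀ d : Finset α, ∀ X ⊆ T, Disjoint X (d \ T) := fun d X hX =>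
      Finset.disjoint_left.2 fun x hx hx' => (Finset.mem_sdiff.1 hx').2 (hX hx)
    have a := hTd b0 T0 hT0
    have b := hTd d1 T0 hT0
    have c := hTd d2 T0 hT0
    have d := hTd d3 T0 hT0
    have a' := hTd b0 (T \ T0) Finset.sdiff_subset
    have b' := hTd d1 (T \ T0) Finset.sdiff_subset
    have c' := hTd d2 (T \ T0) Finset.sdiff_subset
    have d' := hTd d3 (T \ T0) Finset.sdiff_subset
    have z : Disjoint T0 (T \ T0) := Finset.disjoint_sdiff
    have p01 := disj b0 d1 hb0 hd1 hT hT1 n01
    have p02 := disj b0 d2 hb0 hd2 hT hT2 n02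
    have p03 := disj b0 d3 hb0 hd3 hT hT3 n03
    have p12 := disj d1 d2 hd1 hd2 hT1 hT2 n12
    have p13 := disj d1 d3 hd1 hd3 hT1 hT3 n13
    have p23 := disj d2 d3 hd2 hd3 hT2 hT3 n23
    intro k l hkl
    fin_cases k <;> fin_cases l <;>
      first
        | exact absurd rfl hkl
        | (simp only [P]; first | assumption | (apply Disjoint.symm; assumption))
  let f : Fin 6 × Fin 2 → α := fun x => ((P x.1).equivFinOfCardEq (hP2 x.1)).symm x.2
  have hfP : ∀ k j, f (k, j) ∈ P k := fun k j => (((P k).equivFinOfCardEq (hP2 k)).symm j).2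
  have hfi : Function.Injective f := by
    rintro ⟨k, j⟩ ⟨k', j'⟩ e
    have hk : k = k' := by
      by_contra hne
      have := hfP k j
      rw [e] at this
      exact Finset.disjoint_left.1 (hPd k k' hne) this (hfP k' j')
    subst hk
    exact Prod.ext rfl ((P k).equivFinOfCardEq (hP2 k) |>.symm.injective (Subtype.ext e))
  let E : Fin 12 ≃ α := (finProdFinEquiv (m := 6) (n := 2)).symm.trans (Equiv.ofBijective f
    ((Fintype.bijective_iff_injective_and_card f).2 ⟨hfi, by simp [hα]⟩))
  have hE : ∀ x : Fin 12, E x ∈ P ((finProdFinEquiv (m := 6) (n := 2)).symm x).1 := fun x => hfP _ _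
  set B' := (fun b => b.image E.symm) '' B with hB'
  have hS' : IsSteinerSystem 5 6 B' := by
    refine ⟨?_, fun s hs => ?_⟩
    · rintro _ ⟨b, hb, rfl⟩
      rw [Finset.card_image_of_injective _ E.symm.injective, hB.1 b hb]
    · obtain ⟨b, ⟨hb, hsb⟩, hu⟩ := hB.2 (s.image E) (by rw [Finset.card_image_of_injective _ E.injective, hs])
      refine ⟨b.image E.symm, ⟨⟨b, hb, rfl⟩, fun x hx => ?_⟩, ?_⟩
      · exact Finset.mem_image.2 ⟨E x, hsb (Finset.mem_image_of_mem _ hx), E.symm_apply_apply x⟩
      · rintro _ ⟨⟨c, hc, rfl⟩, hsc⟩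
        refine congrArg (Finset.image E.symm) (hu c ⟨hc, fun x hx => ?_⟩)
        obtain ⟨y, hy, rfl⟩ := Finset.mem_image.1 hx
        obtain ⟨z, hz, e⟩ := Finset.mem_image.1 (hsc hy)
        rw [← e, E.apply_symm_apply]; exact hz
  -- a union of three pairs
  have hset : ∀ (m : ℕ) (b : Finset α) (k2 : Fin 6), b.card = 6 → P 0 ⊆ b → P 1 ⊆ b → P k2 ⊆ b →
      (∀ x : Fin 12, m.testBit x.val = true ↔
        (((finProdFinEquiv (m := 6) (n := 2)).symm x).1 ∈ [0, 1, k2])) →
      (set12 m).card = 6 → b ∈ B → set12 m ∈ B' := by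
    intro m b k2 hb h0 h1 h2 hm hmc hbB
    refine ⟨b, hbB, (Finset.eq_of_subset_of_card_le (fun x hx => ?_) ?_).symm⟩
    · rw [mem_set12, hm] at hx
      refine Finset.mem_image.2 ⟨E x, ?_, E.symm_apply_apply x⟩
      simp only [List.mem_cons, List.not_mem_nil, or_false] at hx
      have := hE x
      rcases hx with e | e | e <;> rw [e] at this
      exacts [h0 this, h1 this, h2 this]
    · rw [Finset.card_image_of_injective _ E.symm.injective, hb, hmc]
  have hT0T : P 0 ⊆ T ∧ P 1 ⊆ T := ⟨by simpa [P] using hT0, by simp [P]⟩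
  have k0 := hset 63 b0 2 hb6 (hT0T.1.trans hT) (hT0T.2.trans hT) (by simp [P]) (by decide) (by decide) hb0
  have k1 := hset 207 d1 3 (hB.1 d1 hd1) (hT0T.1.trans hT1) (hT0T.2.trans hT1) (by simp [P]) (by decide)
    (by decide) hd1
  have k2 := hset 783 d2 4 (hB.1 d2 hd2) (hT0T.1.trans hT2) (hT0T.2.trans hT2) (by simp [P]) (by decide)
    (by decide) hd2
  have k3 := hset 3087 d3 5 (hB.1 d3 hd3) (hT0T.1.trans hT3) (hT0T.2.trans hT3) (by simp [P]) (by decide)
    (by decide) hd3
  have hstart : ∀ k, start.testBit k = true → set12 k ∈ B' := by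
    intro k hk
    rw [eq_of_beq start_ok] at hk
    simp only [Nat.testBit_or, Bool.or_eq_true, Nat.testBit_two_pow, decide_eq_true_eq] at hk
    rcases hk with ((((((h | h) | h) | h) | h) | h) | h) | h <;> rw [← h]
    exacts [k0, set12_compl 63 ▸ compl_mem hS' k0, k1, set12_compl 207 ▸ compl_mem hS' k1,
      k2, set12_compl 783 ▸ compl_mem hS' k2, k3, set12_compl 3087 ▸ compl_mem hS' k3]
  obtain ⟨e, he⟩ := chk_sound hS' root start hstart root_ok
  refine ⟨e.trans E, ?_⟩
  have h := congrArg (fun S => (fun b => Finset.image E b) '' S) he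
  simp only [hB', Set.image_image, Finset.image_image] at h
  simpa [Function.comp_def] using h

end CfsgLib.Steiner.Twelve
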