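/-
The automorphism group of the S(5,6,12) and of the S(4,5,11).
-/
import Cfsg.Agent.Steiner.Hex12
import Cfsg.Agent.Steiner.Iso24
import Cfsg.Agent.Golay.DodStab

set_option autoImplicit false

namespace CfsgLib.Steiner.Twelve

open Cfsg CfsgLib.Golay MulAction
open scoped Pointwise

/-- The dodecad point of a label. -/
def ι (i : Fin 12) : GolayPt := ptN (dIdx.getD i.val 0)

theorem ι_injective : Function.Injective ι := by
  intro i j; revert i j; decide +kernel

theorem ι_mem (i : Fin 12) : ι i ∈ DodStab.D := by revert i; decide +kernel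

theorem exists_label {p : GolayPt} (hp : p ∈ DodStab.D) : ∃ i, ι i = p := by
  revert p; decide +kernel

/-- The labels of the points of a set. -/
def pull (o : Finset GolayPt) : Finset (Fin 12) := Finset.univ.filter fun i => ι i ∈ o

/-- The mask of the labels of the bits of a mask. -/
def down (m : ℕ) : ℕ :=
  (List.range 12).foldl (fun acc i => bif m.testBit (dIdx.getD i 0) then acc ||| 2 ^ i else acc) 0

theorem down_ok : (octList.all fun m => !(Nat.beq (popc (m &&& DodStab.sqD)) 6) ||
    hexList.contains (down m)) = true := by decide +kernel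

theorem down_surj : (hexList.all fun h => octList.any fun m => Nat.beq (down m) h &&
    Nat.beq (popc (m &&& DodStab.sqD)) 6) = true := by decide +kernel

theorem mask12_pull (o : Finset GolayPt) : mask12 (pull o) = down (mask o) := by
  have hl : ∀ (l : List ℕ) (acc j : ℕ),
      (l.foldl (fun acc i => bif (mask o).testBit (dIdx.getD i 0) then acc ||| 2 ^ i else acc) acc).testBit j
        = (acc.testBit j || decide (j ∈ l ∧ (mask o).testBit (dIdx.getD j 0) = true)) := by
    intro l
    induction l with
    | nil => simp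
    | cons a r ih =>
      intro acc j
      rw [List.foldl_cons, ih]
      cases hb : (mask o).testBit (dIdx.getD a 0)
      · rw [cond_false]
        congr 1
        rw [decide_eq_decide]
        refine ⟨fun h => ⟨List.mem_cons_of_mem _ h.1, h.2⟩, fun h => ?_⟩
        rcases List.mem_cons.1 h.1 with e | e
        · rw [e, hb] at h; simp at h
        · exact ⟨e, h.2⟩
      · rw [cond_true, Nat.testBit_or, Nat.testBit_two_pow, Bool.or_assoc]
        congr 1
        rw [← Bool.decide_or, decide_eq_decide]
        constructor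
        · rintro (e | h)
          · exact e ▸ ⟨List.mem_cons_self, hb⟩
          · exact ⟨List.mem_cons_of_mem _ h.1, h.2⟩
        · rintro ⟨h, h'⟩
          rcases List.mem_cons.1 h with e | e
          · exact Or.inl e.symm
          · exact Or.inr ⟨e, h'⟩
  refine Nat.eq_of_testBit_eq fun j => ?_
  rw [down, hl, Nat.zero_testBit, Bool.false_or]
  rcases lt_or_ge j 12 with hj | hj
  · have h := testBit_mask12 (pull o) ⟨j, hj⟩
    simp only at h
    have hb : dIdx.getD j 0 < 24 := (by decide : ∀ j < 12, dIdx.getD j 0 < 24) j hj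
    rw [h, decide_eq_decide]
    simp only [pull, Finset.mem_filter, Finset.mem_univ, true_and, List.mem_range, hj]
    have h2 := testBit_mask o (ptN (dIdx.getD j 0))
    rw [idx_ptN hb] at h2
    rw [h2, decide_eq_true_eq]
    exact Iff.rfl
  · rw [Nat.testBit_lt_two_pow (lt_of_lt_of_le (mask12_lt _) (Nat.pow_le_pow_right (by omega) hj))]
    simp [show ¬ j < 12 by omega]

theorem pull_mem {o : Finset GolayPt} (ho : o ∈ octads) (h6 : (o ∩ DodStab.D).card = 6) :
    pull o ∈ hexads12 := by
  show mask12 (pull o) ∈ hexList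
  have h := down_ok
  simp only [List.all_eq_true, Bool.or_eq_true, Bool.not_eq_true', ← Bool.not_eq_true, Nat.beq_eq,
    List.contains_iff_mem] at h
  rw [mask12_pull]
  refine (h _ (mem_octads_iff.1 ho)).resolve_left (not_not.2 ?_)
  rw [← mask_toSet DodStab.sqD_lt, ← mask_inter, popc_mask]
  exact h6

theorem exists_octad_pull {s : Finset (Fin 12)} (hs : s ∈ hexads12) :
    ∃ o ∈ octads, (o ∩ DodStab.D).card = 6 ∧ pull o = s := by
  have h := down_surj
  simp only [List.all_eq_true, List.any_eq_true, Bool.and_eq_true, Nat.beq_eq] at h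
  obtain ⟨m, hm, e1, e2⟩ := h _ hs
  have hlt := (mem_wtList.1 hm).2.1
  refine ⟨toSet m, by rw [mem_octads_iff, mask_toSet hlt]; exact hm, ?_, ?_⟩
  · rw [← popc_mask, mask_inter, mask_toSet hlt, mask_toSet DodStab.sqD_lt, e2]
  · refine mask12_injective ?_
    rw [mask12_pull, mask_toSet hlt, e1]

/-- The stabiliser of the dodecad. -/
abbrev K : Subgroup M24 := stabilizer M24 DodStab.D

theorem exists_act (g : K) (i : Fin 12) : ∃ j, ι j = (g.1 : Equiv.Perm GolayPt) (ι i) :=
  exists_label (by
    have h := Finset.smul_mem_smul_finset (a := g.1.1) (ι_mem i)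
    have e : g.1.1 • DodStab.D = DodStab.D := g.2
    rwa [e] at h)

/-- The induced permutation of labels. -/
noncomputable def label (g : K) : Equiv.Perm (Fin 12) :=
  Equiv.ofBijective (fun i => (exists_act g i).choose) (Finite.injective_iff_bijective.1 fun a b h => by
    refine ι_injective ((g.1 : Equiv.Perm GolayPt).injective ?_)
    rw [← (exists_act g a).choose_spec, ← (exists_act g b).choose_spec, h])

theorem ι_label (g : K) (i : Fin 12) : ι (label g i) = (g.1 : Equiv.Perm GolayPt) (ι i) :=
  (exists_act g i).choose_spec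

theorem pull_smul (g : K) (o : Finset GolayPt) : pull (g.1.1 • o) = label g • pull o := by
  ext j
  obtain ⟨i, rfl⟩ := (label g).surjective j
  rw [← Equiv.Perm.smul_def, Finset.smul_mem_smul_finset_iff, Equiv.Perm.smul_def]
  simp only [pull, Finset.mem_filter, Finset.mem_univ, true_and, ι_label]
  exact Finset.smul_mem_smul_finset_iff (a := g.1.1)

theorem label_mem (g : K) : label g ∈ setSystemAut hexads12 := by
  refine mem_stabilizer_iff.2 (Set.eq_of_subset_of_ncard_le ?_
    (le_of_eq (Set.ncard_image_of_injective _ (MulAction.injective _)).symm) (Set.toFinite _))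
  rintro _ ⟨s, hs, rfl⟩
  obtain ⟨o, ho, h6, rfl⟩ := exists_octad_pull hs
  show label g • pull o ∈ hexads12
  rw [← pull_smul]
  refine pull_mem (smul_mem_octads g.1.2 ho) ?_
  have e : g.1.1 • DodStab.D = DodStab.D := g.2
  rw [← e, ← Finset.smul_finset_inter, Finset.card_smul_finset, h6]

/-- Action on labels as a homomorphism. -/
noncomputable def labelHom : K →* setSystemAut hexads12 where
  toFun g := ⟨label g, label_mem g⟩
  map_one' := Subtype.ext (Equiv.ext fun i => ι_injective (by simp [ι_label]))
  map_mul' g h := Subtype.ext (Equiv.ext fun i => ι_injective (by simp [ι_label]))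

theorem labelHom_injective : Function.Injective labelHom := by
  rw [injective_iff_map_eq_one]
  intro g hg
  have hl : label g = 1 := congrArg Subtype.val hg
  have hD : g.1.1 • DodStab.D = DodStab.D := g.2
  have hc : g.1.1 ∈ DodStab.chainA 5 := by
    refine DodStab.mem_chainA.2 ⟨g.1.2, hD, fun i hi => ?_⟩
    obtain ⟨j, hj⟩ := exists_label ((by decide : ∀ i ∈ DodStab.inBase.take 5, ptN i ∈ DodStab.D) i hi)
    rw [← hj, ← ι_label g j, hl, Equiv.Perm.one_apply]
  rw [Subgroup.eq_bot_of_card_eq _ DodStab.card_chainA.2.2.2.2.2, Subgroup.mem_bot] at hc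
  exact Subtype.ext (Subtype.ext hc)

/-- The base five-tuple. -/
def base5 : Fin 5 ↪ Fin 12 := ⟨fun i => ⟨i.val, by omega⟩, fun _ _ h => Fin.ext (Fin.mk.inj_iff.1 h)⟩

/-- The model blocks as one number. -/
def hexSet : ℕ := hexList.foldl (fun N h => N ||| 2 ^ h) 0

theorem hexSet_mem {k : ℕ} (h : k ∈ hexList) : hexSet.testBit k = true := by
  have key : ∀ (l : List ℕ) (N : ℕ), (N.testBit k = true ∨ k ∈ l) →
      (l.foldl (fun N h => N ||| 2 ^ h) N).testBit k = true := by
    intro l
    induction l with
    | nil => intro N h; simpa using h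
    | cons a r ih =>
      intro N h
      refine ih _ ?_
      rcases h with h | h
      · left; simp [Nat.testBit_or, h]
      · rcases List.mem_cons.1 h with rfl | h
        · left; simp [Nat.testBit_or]
        · exact Or.inr h
  exact key hexList 0 (Or.inr h)

theorem rigid : ([6, 7, 8, 9, 10, 11].permutations'.all fun q =>
    (q == [6, 7, 8, 9, 10, 11]) || hexList.any fun h =>
      !(hexSet.testBit (act12 ([0, 1, 2, 3, 4, 5] ++ q) h))) = true := by decide +kernel

theorem fix_base_eq_one {σ : Equiv.Perm (Fin 12)} (hσ : σ ∈ setSystemAut hexads12)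
    (hfix : ∀ i : Fin 5, σ (base5 i) = base5 i) : σ = 1 := by
  have hmap : ∀ s ∈ hexads12, σ • s ∈ hexads12 := fun s hs => by
    have := Set.smul_mem_smul_set (a := σ) hs
    rwa [mem_stabilizer_iff.1 hσ] at this
  have h63 : (set12 63) ∈ hexads12 := by
    show mask12 (set12 63) ∈ hexList
    rw [mask12_set12 (by norm_num)]; decide +kernel
  have hlow : ∀ i : Fin 12, i.val < 5 → σ i = i := fun i hi => hfix ⟨i.val, hi⟩
  have h5 : σ 5 = 5 := by
    by_contra hne
    have hmem : (5 : Fin 12) ∈ set12 63 := by decide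
    have hs := hmap _ h63
    have hS : IsSteinerSystem 5 6 hexads12 → False := fun hS => by
      have : σ • set12 63 = set12 63 := by
        refine unique_block hS hs h63 ?_
        have hsub : Finset.univ.map base5 ⊆ (σ • set12 63) ∩ set12 63 := by
          intro x hx
          obtain ⟨i, -, rfl⟩ := Finset.mem_map.1 hx
          have hi : base5 i ∈ set12 63 := (by decide : ∀ i : Fin 5, base5 i ∈ set12 63) i
          refine Finset.mem_inter.2 ⟨?_, hi⟩
          have h'' := Finset.smul_mem_smul_finset (a := σ) hi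
          rwa [Equiv.Perm.smul_def, hfix i] at h''
        simpa using Finset.card_le_card hsub
      have h' := Finset.smul_mem_smul_finset (a := σ) hmem
      rw [this, Equiv.Perm.smul_def, mem_set12] at h'
      have : σ 5 = 5 ∨ (σ 5).val < 5 := by
        have : ∀ y : Fin 12, Nat.testBit 63 y.val = true → y = 5 ∨ y.val < 5 := by decide
        exact this _ h'
      rcases this with e | e
      · exact hne e
      · have := σ.injective (hlow _ e)
        exact hne this
    refine hS ⟨fun b hb => ?_, fun s hs5 => ?_⟩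
    · rw [← set12_mask12 b, card_set12]
      exact (by decide +kernel : ∀ m ∈ hexList, pc m = 6) _ hb
    · obtain ⟨X, hX, hXc⟩ : ∃ X : Finset GolayPt, X = s.image ι ∧ X.card = 5 :=
        ⟨_, rfl, by rw [Finset.card_image_of_injective _ ι_injective, hs5]⟩
      obtain ⟨o, ⟨ho, hXo⟩, hu⟩ := Golay.steiner.2 X hXc
      have hsub : X ⊆ o ∩ DodStab.D := Finset.subset_inter hXo (by
        subst hX; intro x hx; obtain ⟨i, -, rfl⟩ := Finset.mem_image.1 hx; exact ι_mem i)
      have h6 : (o ∩ DodStab.D).card = 6 := by
        have := Finset.card_le_card hsub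
        rcases DodStab.dod_inter_oct DodStab.D_mem ho with e | e | e <;> omega
      refine ⟨pull o, ⟨pull_mem ho h6, fun i hi => ?_⟩, ?_⟩
      · simp only [pull, Finset.mem_filter, Finset.mem_univ, true_and]
        exact hXo (hX ▸ Finset.mem_image_of_mem ι hi)
      · rintro c ⟨hc, hsc⟩
        obtain ⟨o', ho', -, rfl⟩ := exists_octad_pull hc
        rw [hu o' ⟨ho', fun x hx => ?_⟩]
        subst hX
        obtain ⟨i, hi, rfl⟩ := Finset.mem_image.1 hx
        have := hsc hi
        simpa [pull] using this
  have hsix : ∀ i : Fin 12, i.val < 6 → σ i = i := fun i hi => by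
    rcases lt_or_eq_of_le (Nat.le_of_lt_succ hi) with h | h
    · exact hlow i h
    · rw [show i = 5 from Fin.ext h, h5]
  set q := [(σ 6).val, (σ 7).val, (σ 8).val, (σ 9).val, (σ 10).val, (σ 11).val] with hq
  have hperm : q.Perm [6, 7, 8, 9, 10, 11] := by
    have hnd : q.Nodup := by
      rw [show q = [(6 : Fin 12), 7, 8, 9, 10, 11].map (fun i => (σ i).val) from rfl]
      exact (by decide : [(6 : Fin 12), 7, 8, 9, 10, 11].Nodup).map (Fin.val_injective.comp σ.injective)
    refine (List.subperm_of_subset hnd fun x hx => ?_).perm_of_length_le (by simp [hq])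
    rw [show q = [(6 : Fin 12), 7, 8, 9, 10, 11].map (fun i => (σ i).val) from rfl] at hx
    obtain ⟨i, hi, rfl⟩ := List.mem_map.1 hx
    have h6i : 6 ≤ i.val := (by decide : ∀ i ∈ [(6 : Fin 12), 7, 8, 9, 10, 11], 6 ≤ i.val) i hi
    have hge : 6 ≤ (σ i).val := by
      by_contra h
      have := σ.injective (hsix (σ i) (by omega))
      rw [this] at h
      omega
    have := (σ i).isLt
    simp only [List.mem_cons, List.not_mem_nil, or_false]
    omega
  have h := rigid
  simp only [List.all_eq_true, Bool.or_eq_true, List.any_eq_true, Bool.not_eq_true', beq_iff_eq] at h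
  rcases h q (List.mem_permutations'.2 hperm) with e | ⟨m, hm, hbad⟩
  · simp only [hq, List.cons.injEq, and_true] at e
    refine Equiv.ext fun i => Fin.ext ?_
    rcases lt_or_ge i.val 6 with hi | hi
    · rw [hsix i hi]; rfl
    · have : i = 6 ∨ i = 7 ∨ i = 8 ∨ i = 9 ∨ i = 10 ∨ i = 11 := by
        have := i.isLt
        simp only [Fin.ext_iff]
        show i.val = 6 ∨ i.val = 7 ∨ i.val = 8 ∨ i.val = 9 ∨ i.val = 10 ∨ i.val = 11
        omega
      obtain ⟨e1, e2, e3, e4, e5, e6⟩ := e
      rcases this with rfl | rfl | rfl | rfl | rfl | rfl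
      exacts [e1, e2, e3, e4, e5, e6]
  · exfalso
    have hm' : set12 m ∈ hexads12 := by
      show mask12 (set12 m) ∈ hexList
      rw [mask12_set12 ((by decide +kernel : ∀ m ∈ hexList, m < 4096) m hm)]; exact hm
    have himg : mask12 (σ • set12 m) = act12 ([0, 1, 2, 3, 4, 5] ++ q) m := by
      have hlt : act12 ([0, 1, 2, 3, 4, 5] ++ q) m < 2 ^ 12 := by
        refine Nat.lt_pow_two_of_testBit _ fun j hj => ?_
        rw [← Bool.not_eq_true, act12, testBit_apMask]
        rintro ⟨⟨x, hx⟩, -, h2⟩
        rw [List.getElem_map, Nat.testBit_two_pow, decide_eq_true_eq] at h2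
        have : ∀ y ∈ [0, 1, 2, 3, 4, 5] ++ q, y < 12 := by
          intro y hy
          rcases List.mem_append.1 hy with h | h
          · exact (by decide : ∀ y ∈ [0, 1, 2, 3, 4, 5], y < 12) y h
          · exact (by decide : ∀ y ∈ [6, 7, 8, 9, 10, 11], y < 12) y (hperm.subset h)
        have := this _ (h2 ▸ List.getElem_mem _)
        omega
      rw [← mask12_set12 hlt]
      refine congrArg mask12 (Finset.ext fun y => ?_)
      have htab : ∀ (x : ℕ) (hx : x < ([0, 1, 2, 3, 4, 5] ++ q).length),
          ([0, 1, 2, 3, 4, 5] ++ q)[x] = (σ ⟨x, by simpa [hq] using hx⟩).val := by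
        intro x hx
        have hx' : x < 12 := by simpa [hq] using hx
        rcases lt_or_ge x 6 with h | h
        · rw [hsix ⟨x, hx'⟩ h]
          interval_cases x <;> rfl
        · interval_cases x <;> rfl
      rw [mem_set12, act12, testBit_apMask]
      simp only [List.getElem_map, Nat.testBit_two_pow, decide_eq_true_eq]
      constructor
      · intro hy
        obtain ⟨x, hx, rfl⟩ := Finset.mem_smul_finset.1 hy
        refine ⟨⟨x.val, by simp [hq]⟩, mem_set12.1 hx, ?_⟩
        rw [htab]; rfl
      · rintro ⟨⟨x, hx⟩, h1, h2⟩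
        rw [htab] at h2
        rw [← Fin.ext h2 (b := y), ← Equiv.Perm.smul_def, Finset.smul_mem_smul_finset_iff]
        exact mem_set12.2 h1
    have := hexSet_mem (hmap _ hm')
    rw [himg, hbad] at this
    simp at this

theorem stab_base (x : setSystemAut hexads12) (hx : x • base5 = base5) : x = 1 :=
  Subtype.ext (fix_base_eq_one x.2 fun i => congrArg (fun f : Fin 5 ↪ Fin 12 => f i) hx)

theorem card_aut_le : Nat.card (setSystemAut hexads12) ≤ 95040 := by
  have h : stabilizer (setSystemAut hexads12) base5 = ⊥ :=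
    (Subgroup.eq_bot_iff_forall _).2 stab_base
  rw [← Subgroup.index_bot, ← h, index_stabilizer]
  refine (Set.ncard_le_ncard (Set.subset_univ _)).trans ?_
  rw [Set.ncard_univ, Nat.card_eq_fintype_card, Fintype.card_embedding_eq]
  decide

/-- The automorphism group of the model is the dodecad stabiliser. -/
noncomputable def autEquiv12 : K ≃* setSystemAut hexads12 :=
  MulEquiv.ofBijective labelHom <| by
    refine (Nat.bijective_iff_injective_and_card labelHom).2 ⟨labelHom_injective, le_antisymm ?_ ?_⟩
    · exact Nat.card_le_card_of_injective _ labelHom_injective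
    · rw [DodStab.card_stab_dodecad DodStab.D_mem]; exact card_aut_le

theorem exists_aut_map {n : ℕ} (hn : n ≤ 5) (x y : Fin n → Fin 12) (hx : Function.Injective x)
    (hy : Function.Injective y) : ∃ g ∈ setSystemAut hexads12, ∀ i, g (x i) = y i := by
  obtain ⟨a, ha, had, hai⟩ := DodStab.exists_map_in hn DodStab.D_mem DodStab.D_mem (ι ∘ x) (ι ∘ y)
    (ι_injective.comp hx) (ι_injective.comp hy) (fun i => ι_mem _) (fun i => ι_mem _)
  refine ⟨label ⟨⟨a, ha⟩, had⟩, label_mem _, fun i => ι_injective ?_⟩
  rw [ι_label]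
  exact hai i

theorem sharp {x : Fin 5 ↪ Fin 12} : stabilizer (setSystemAut hexads12) x = ⊥ := by
  refine (Subgroup.eq_bot_iff_forall _).2 fun g hg => ?_
  obtain ⟨a, ha, hai⟩ := exists_aut_map le_rfl base5 x base5.injective x.injective
  have hb : (⟨a, ha⟩⁻¹ * g * ⟨a, ha⟩ : setSystemAut hexads12) • base5 = base5 := by
    refine Function.Embedding.ext fun i => ?_
    have h1 : g.1 (x i) = x i := congrArg (fun f : Fin 5 ↪ Fin 12 => f i) (mem_stabilizer_iff.1 hg)
    show a⁻¹ (g.1 (a (base5 i))) = base5 i
    rw [hai i, h1, Equiv.Perm.inv_eq_iff_eq, hai i]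
  have := stab_base _ hb
  calc g = ⟨a, ha⟩ * (⟨a, ha⟩⁻¹ * g * ⟨a, ha⟩) * ⟨a, ha⟩⁻¹ := by group
    _ = 1 := by rw [this]; group

end CfsgLib.Steiner.Twelve
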