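/-
The S(4,5,11): extension to an S(5,6,12), uniqueness, automorphism group.
-/
import Cfsg.Agent.Steiner.Aut12
import Cfsg.Agent.Steiner.Iso23

set_option autoImplicit false

namespace CfsgLib.Steiner.Eleven

open Cfsg CfsgLib.Golay CfsgLib.Steiner.Twelve MulAction
open scoped Pointwise

universe u v

variable {α : Type u} [Fintype α] [DecidableEq α] {β : Type v} [Fintype β] [DecidableEq β]

/-- A set of points, seen without the extra point. -/
def co (b : Finset α) : Finset (Option α) := bᶜ.map Function.Embedding.some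

/-- The extension of a system of blocks. -/
def ext12 (B : Set (Finset α)) : Set (Finset (Option α)) := up '' B ∪ co '' B

theorem none_notMem_co (b : Finset α) : none ∉ co b := by simp [co]

theorem up_injective : Function.Injective (up : Finset α → Finset (Option α)) := fun b c h =>
  Finset.ext fun x => by rw [← some_mem_up (b := b), h, some_mem_up]

theorem up_mem_ext12 {B : Set (Finset α)} {b : Finset α} : up b ∈ ext12 B ↔ b ∈ B := by
  refine ⟨?_, fun h => Or.inl ⟨b, h, rfl⟩⟩
  rintro (⟨c, hc, e⟩ | ⟨c, hc, e⟩)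
  · exact up_injective e ▸ hc
  · exact absurd (e ▸ none_mem_up b) (none_notMem_co c)

theorem ext12_injective : Function.Injective (ext12 : Set (Finset α) → Set (Finset (Option α))) :=
  fun B C h => Set.ext fun b => by rw [← up_mem_ext12 (B := B), h, up_mem_ext12]

/-- A five-set is inside one block or avoids one block, never both. -/
theorem meet_five {B : Set (Finset α)} (hB : IsSteinerSystem 4 5 B) (hα : Fintype.card α = 11)
    {s : Finset α} (hs : s.card = 5) : meet B s 0 + meet B s 5 = 1 := by
  have m0 := moments hB s (i := 0) (by omega)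
  have m1 := moments hB s (i := 1) (by omega)
  have m2 := moments hB s (i := 2) (by omega)
  have m3 := moments hB s (i := 3) (by omega)
  have m4 := moments hB s (i := 4) (by omega)
  simp [hs, hα, Finset.sum_range_succ, Nat.choose_eq_descFactorial_div_factorial,
    Nat.descFactorial_succ, Nat.factorial] at m0 m1 m2 m3 m4
  omega

theorem isSteiner_ext12 {B : Set (Finset α)} (hB : IsSteinerSystem 4 5 B)
    (hα : Fintype.card α = 11) : IsSteinerSystem 5 6 (ext12 B) := by
  refine ⟨?_, fun S hS => ?_⟩
  · rintro _ (⟨b, hb, rfl⟩ | ⟨b, hb, rfl⟩)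
    · rw [card_up, hB.1 b hb]
    · rw [co, Finset.card_map, Finset.card_compl, hB.1 b hb, hα]
  have hsub_up : ∀ b : Finset α, S ⊆ up b ↔ S.eraseNone ⊆ b := fun b => by
    refine ⟨fun h x hx => some_mem_up.1 (h (Finset.mem_eraseNone.1 hx)), fun h x hx => ?_⟩
    cases x with
    | none => exact none_mem_up b
    | some y => exact some_mem_up.2 (h (Finset.mem_eraseNone.2 hx))
  by_cases hn : none ∈ S
  · have hs : S.eraseNone.card = 4 := by rw [Finset.card_eraseNone_of_mem hn, hS]
    obtain ⟨b, ⟨hb, hsb⟩, hu⟩ := hB.2 _ hs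
    refine ⟨up b, ⟨Or.inl ⟨b, hb, rfl⟩, (hsub_up b).2 hsb⟩, ?_⟩
    rintro _ ⟨⟨c, hc, rfl⟩ | ⟨c, hc, rfl⟩, hSc⟩
    · rw [hu c ⟨hc, (hsub_up c).1 hSc⟩]
    · exact absurd (hSc hn) (none_notMem_co c)
  · have hs : S.eraseNone.card = 5 := by rw [Finset.card_eraseNone_of_not_mem hn, hS]
    set s := S.eraseNone with hsdef
    have hsub_co : ∀ b : Finset α, S ⊆ co b ↔ (b ∩ s).card = 0 := fun b => by
      rw [Finset.card_eq_zero, ← Finset.disjoint_iff_inter_eq_empty, Finset.disjoint_left]
      refine ⟨fun h x hxb hxs => ?_, fun h x hx => ?_⟩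
      · have := h (Finset.mem_eraseNone.1 hxs)
        simp [co] at this
        exact this hxb
      · cases x with
        | none => exact absurd hx hn
        | some y =>
          simp [co]
          exact fun hyb => h hyb (Finset.mem_eraseNone.2 hx)
    have h5 : ∀ b ∈ B, ((b ∩ s).card = 5 ↔ s ⊆ b) := fun b hb => by
      refine ⟨fun h => ?_, fun h => by rw [Finset.inter_eq_right.2 h, hs]⟩
      exact Finset.inter_eq_right.1 (Finset.eq_of_subset_of_card_le Finset.inter_subset_right (by omega))
    have hone : ((blocks B).filter fun c => (c ∩ s).card = 0 ∨ (c ∩ s).card = 5).card = 1 := by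
      rw [Finset.filter_or, Finset.card_union_of_disjoint
        (Finset.disjoint_filter.2 fun c _ h0 h5' => by omega)]
      exact meet_five hB hα hs
    obtain ⟨b, hb⟩ := Finset.card_eq_one.1 hone
    have hmem : ∀ c, (c ∈ B ∧ ((c ∩ s).card = 0 ∨ (c ∩ s).card = 5)) ↔ c = b := fun c => by
      rw [← mem_blocks, ← Finset.mem_filter (s := blocks B)
        (p := fun c => (c ∩ s).card = 0 ∨ (c ∩ s).card = 5), hb, Finset.mem_singleton]
    obtain ⟨hbB, hbs⟩ := (hmem b).2 rfl
    rcases hbs with h0 | h0
    · refine ⟨co b, ⟨Or.inr ⟨b, hbB, rfl⟩, (hsub_co b).2 h0⟩, ?_⟩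
      rintro _ ⟨⟨c, hc, rfl⟩ | ⟨c, hc, rfl⟩, hSc⟩
      · have h := (hmem c).1 ⟨hc, Or.inr ((h5 c hc).2 ((hsub_up c).1 hSc))⟩
        subst h
        have := (h5 c hc).2 ((hsub_up c).1 hSc)
        omega
      · rw [(hmem c).1 ⟨hc, Or.inl ((hsub_co c).1 hSc)⟩]
    · refine ⟨up b, ⟨Or.inl ⟨b, hbB, rfl⟩, (hsub_up b).2 ((h5 b hbB).1 h0)⟩, ?_⟩
      rintro _ ⟨⟨c, hc, rfl⟩ | ⟨c, hc, rfl⟩, hSc⟩
      · rw [(hmem c).1 ⟨hc, Or.inr ((h5 c hc).2 ((hsub_up c).1 hSc))⟩]
      · have h := (hmem c).1 ⟨hc, Or.inl ((hsub_co c).1 hSc)⟩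
        subst h
        have := (hsub_co c).1 hSc
        omega

theorem image_ext12 (e : α ≃ β) (B : Set (Finset α)) :
    (fun X => X.image e.optionCongr) '' ext12 B = ext12 ((fun b => b.image e) '' B) := by
  have h1 : ∀ b : Finset α, (up b).image e.optionCongr = up (b.image e) := fun b => by
    ext x
    cases x <;> simp [up]
  have h2 : ∀ b : Finset α, (co b).image e.optionCongr = co (b.image e) := fun b => by
    ext x
    cases x with
    | none => simp [co]
    | some y =>
      obtain ⟨z, rfl⟩ := e.surjective y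
      simp [co]
  simp only [ext12, Set.image_union, Set.image_image, h1, h2]

theorem optionCongr_removeNone' (E : Option α ≃ Option β) (h0 : E none = none) :
    (Equiv.removeNone E).optionCongr = E := by
  refine Equiv.ext fun x => ?_
  cases x with
  | none => exact h0.symm
  | some a =>
    refine Equiv.removeNone_some E ?_
    cases h : E (some a) with
    | none => exact absurd (E.injective (h.trans h0.symm)) (by simp)
    | some y => exact ⟨y, rfl⟩

theorem removeNone_blocks {B : Set (Finset α)} {B' : Set (Finset β)} (E : Option α ≃ Option β)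
    (h0 : E none = none) (h : (fun X => X.image E) '' ext12 B = ext12 B') :
    (fun b => b.image (Equiv.removeNone E)) '' B = B' := by
  refine ext12_injective ?_
  rw [← image_ext12, optionCongr_removeNone' E h0, h]

variable {B : Set (Finset α)}

theorem hex_smul {g : Equiv.Perm (Fin 12)} (hg : g ∈ setSystemAut hexads12) :
    (fun b => b.image g) '' hexads12 = hexads12 := mem_stabilizer_iff.1 hg

/-- The extension is the model, with the extra point at label zero. -/
theorem iso11 (hB : IsSteinerSystem 4 5 B) (hα : Fintype.card α = 11) :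
    ∃ e : Fin 12 ≃ Option α, e 0 = none ∧ (fun b => b.image e) '' hexads12 = ext12 B := by
  obtain ⟨e, he⟩ := iso12 (isSteiner_ext12 hB hα) (by rw [Fintype.card_option, hα])
  obtain ⟨g, hg, hg0⟩ := exists_aut_map (n := 1) (by omega) (fun _ => 0) (fun _ => e.symm none)
    (fun _ _ _ => Subsingleton.elim _ _) (fun _ _ _ => Subsingleton.elim _ _)
  refine ⟨g.trans e, by simp [hg0 0], ?_⟩
  conv_rhs => rw [← he, ← hex_smul hg, Set.image_image]
  simp [Finset.image_image, Function.comp_def]

/-- The point stabiliser in the model's group. -/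
abbrev S11 : Subgroup (setSystemAut hexads12) := stabilizer _ (0 : Fin 12)

theorem optionCongr_mem {σ : Equiv.Perm α} (hσ : σ ∈ setSystemAut B) :
    σ.optionCongr ∈ setSystemAut (ext12 B) := by
  refine mem_stabilizer_iff.2 ?_
  show (fun X => X.image σ.optionCongr) '' ext12 B = ext12 B
  rw [image_ext12]
  exact congrArg ext12 (mem_stabilizer_iff.1 hσ)

variable (e : Fin 12 ≃ Option α) (h0 : e 0 = none) (he : (fun b => b.image e) '' hexads12 = ext12 B)

include e h0 he

/-- Automorphisms as fixers of the label zero. -/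
noncomputable def toS11 : setSystemAut B →* S11 where
  toFun σ := ⟨(autEquiv e he).symm ⟨σ.1.optionCongr, optionCongr_mem σ.2⟩, by
    show e.symm (σ.1.optionCongr (e.symm.symm 0)) = 0
    rw [Equiv.symm_symm, h0, Equiv.symm_apply_eq, h0]
    rfl⟩
  map_one' := Subtype.ext (Subtype.ext (Equiv.ext fun i => by
    show e.symm ((1 : Equiv.Perm α).optionCongr (e.symm.symm i)) = i
    simp))
  map_mul' σ τ := Subtype.ext (Subtype.ext (Equiv.ext fun i => by
    show e.symm ((σ.1 * τ.1).optionCongr (e.symm.symm i))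
      = e.symm (σ.1.optionCongr (e.symm.symm (e.symm (τ.1.optionCongr (e.symm.symm i)))))
    rcases hx : e i with _ | x <;> simp [hx]))

theorem toS11_apply (σ : setSystemAut B) (i : Fin 12) :
    e ((toS11 e h0 he σ).1.1 i) = σ.1.optionCongr (e i) := by
  show e (e.symm (σ.1.optionCongr (e.symm.symm i))) = _
  simp

theorem toS11_injective : Function.Injective (toS11 e h0 he) := by
  intro σ τ h
  refine Subtype.ext (Equiv.ext fun x => Option.some_injective _ ?_)
  have h1 := toS11_apply e h0 he σ (e.symm (some x))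
  have h2 := toS11_apply e h0 he τ (e.symm (some x))
  rw [h] at h1
  simpa using h1.symm.trans h2

theorem toS11_surjective : Function.Surjective (toS11 e h0 he) := by
  rintro ⟨g, hg⟩
  have hg0 : g.1 0 = 0 := hg
  have hτ := (autEquiv e he g).2
  have hn : (autEquiv e he g).1 none = none := by
    show e (g.1 (e.symm none)) = none
    rw [← h0, e.symm_apply_apply, hg0]
  refine ⟨⟨Equiv.removeNone (autEquiv e he g).1,
    mem_stabilizer_iff.2 (removeNone_blocks _ hn (mem_stabilizer_iff.1 hτ))⟩, ?_⟩
  refine Subtype.ext (Subtype.ext (Equiv.ext fun i => e.injective ?_))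
  rw [toS11_apply]
  rw [optionCongr_removeNone' _ hn]
  show e (g.1 (e.symm (e i))) = _
  rw [e.symm_apply_apply]

/-- The automorphism group as a point stabiliser. -/
noncomputable def autEquiv11 : setSystemAut B ≃* S11 :=
  MulEquiv.ofBijective (toS11 e h0 he) ⟨toS11_injective e h0 he, toS11_surjective e h0 he⟩

omit e h0 he in
/-- The point stabiliser inside the dodecad stabiliser. -/
noncomputable def modelEquiv :
    (stabilizer M24 DodStab.D ⊓ stabilizer M24 (ι 0) : Subgroup M24) ≃* S11 :=
  MulEquiv.ofBijective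
    ({ toFun := fun g => ⟨autEquiv12 ⟨g.1, g.2.1⟩, by
          show label ⟨g.1, g.2.1⟩ 0 = 0
          refine ι_injective ?_
          rw [ι_label]
          exact g.2.2⟩
       map_one' := Subtype.ext (map_one autEquiv12)
       map_mul' := fun g h => Subtype.ext (map_mul autEquiv12 (⟨g.1, g.2.1⟩ : K) ⟨h.1, h.2.1⟩) } :
      (stabilizer M24 DodStab.D ⊓ stabilizer M24 (ι 0) : Subgroup M24) →* S11)
    ⟨fun g h e' => Subtype.ext (congrArg Subtype.val (autEquiv12.injective (congrArg Subtype.val e')) :),
     fun x => by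
      refine ⟨⟨(autEquiv12.symm x.1).1, (autEquiv12.symm x.1).2, ?_⟩, Subtype.ext ?_⟩
      · have h : label (autEquiv12.symm x.1) 0 = 0 := by
          have := congrArg Subtype.val (autEquiv12.apply_symm_apply x.1)
          have hx : x.1.1 0 = 0 := x.2
          rw [← this] at hx
          exact hx
        show (autEquiv12.symm x.1).1.1 (ι 0) = ι 0
        rw [← ι_label, h]
      · exact autEquiv12.apply_symm_apply x.1⟩

theorem aut_map (x y : Fin 4 → α) (hx : Function.Injective x) (hy : Function.Injective y) :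
    ∃ σ : setSystemAut B, ∀ i, σ.1 (x i) = y i := by
  have hinj : ∀ z : Fin 4 → α, Function.Injective z →
      Function.Injective (Fin.cons (0 : Fin 12) (e.symm ∘ some ∘ z) : Fin 5 → Fin 12) := fun z hz =>
    Fin.cons_injective_iff.2 ⟨by
      rintro ⟨i, hi⟩
      have := congrArg e hi
      simp [h0] at this,
      e.symm.injective.comp ((Option.some_injective _).comp hz)⟩
  obtain ⟨g, hg, hgi⟩ := exists_aut_map le_rfl _ _ (hinj x hx) (hinj y hy)
  obtain ⟨σ, hσ⟩ := toS11_surjective e h0 he ⟨⟨g, hg⟩, by simpa using hgi 0⟩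
  refine ⟨σ, fun i => Option.some_injective _ ?_⟩
  have h := toS11_apply e h0 he σ (e.symm (some (x i)))
  rw [hσ] at h
  have h2 := hgi i.succ
  simp at h2
  simpa [h2] using h.symm

theorem aut_sharp (x : Fin 4 ↪ α) : stabilizer (setSystemAut B) x = ⊥ := by
  refine (Subgroup.eq_bot_iff_forall _).2 fun σ hσ => toS11_injective e h0 he ?_
  rw [map_one]
  let X : Fin 5 ↪ Fin 12 := ⟨Fin.cons (0 : Fin 12) (e.symm ∘ some ∘ x), Fin.cons_injective_iff.2 ⟨by
      rintro ⟨i, hi⟩
      have := congrArg e hi
      simp [h0] at this,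
      e.symm.injective.comp ((Option.some_injective _).comp x.injective)⟩⟩
  refine Subtype.ext ((Subgroup.eq_bot_iff_forall _).1 (sharp (x := X)) _ ?_)
  refine mem_stabilizer_iff.2 (Function.Embedding.ext fun i => e.injective ?_)
  show e ((toS11 e h0 he σ).1.1 (X i)) = e (X i)
  rw [toS11_apply]
  induction i using Fin.cases with
  | zero => simp [X, h0]
  | succ j =>
    have h1 : σ.1 (x j) = x j := congrArg (fun f : Fin 4 ↪ α => f j) (mem_stabilizer_iff.1 hσ)
    simp [X, h1]

end CfsgLib.Steiner.Eleven
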