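/-
The projective plane of order four as an S(2,5,21): uniqueness and hyperovals.
-/
import Cfsg.Agent.Steiner.Count
import Cfsg.Agent.Steiner.Iso24
import Cfsg.Agent.Steiner.Plane21Data

set_option autoImplicit false

namespace CfsgLib.Steiner.Plane21

open Cfsg MulAction
open scoped Pointwise

/-- A label. -/
def lab (n : ℕ) : Fin 21 := Fin.ofNat 21 n

theorem lab_val {n : ℕ} (h : n < 21) : (lab n).val = n := Nat.mod_eq_of_lt h

theorem lab_self (x : Fin 21) : lab x.val = x := Fin.ext (lab_val x.isLt)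

/-- The lines given by three squares. -/
def linesOf (A B C : List ℕ) : List (List ℕ) :=
  ((List.range 5).map fun i => [0, 1 + 4 * i, 2 + 4 * i, 3 + 4 * i, 4 + 4 * i]) ++
  (List.range 16).map fun k => [1 + k / 4, 5 + k % 4, 9 + A.getD k 0, 13 + B.getD k 0, 17 + C.getD k 0]

/-- The lines of the model. -/
def lines : List (List ℕ) := linesOf sqA sqB sqC

/-- The point set of a list of labels. -/
def setL (l : List ℕ) : Finset (Fin 21) := (l.map lab).toFinset

/-- The model plane. -/
def plane21 : Set (Finset (Fin 21)) := {s | ∃ l ∈ lines, setL l = s}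

theorem lines_facts : ∀ l ∈ lines, (∀ x ∈ l, x < 21) ∧ (l.map lab).Nodup ∧ l.length = 5 := by decide +kernel

theorem mem_setL {l : List ℕ} (hl : l ∈ lines) {x : Fin 21} : x ∈ setL l ↔ x.val ∈ l := by
  simp only [setL, List.mem_toFinset, List.mem_map]
  refine ⟨?_, fun h => ⟨_, h, lab_self x⟩⟩
  rintro ⟨n, hn, rfl⟩
  rwa [lab_val ((lines_facts l hl).1 n hn)]

theorem card_setL {l : List ℕ} (hl : l ∈ lines) : (setL l).card = 5 := by
  rw [setL, List.toFinset_card_of_nodup (lines_facts l hl).2.1, List.length_map, (lines_facts l hl).2.2]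

theorem card_image_lines : (lines.map setL).toFinset.card = 21 := by decide +kernel

/-! ### Normal form -/

/-- Orthogonality of two squares. -/
def orth (A B : List ℕ) : Bool :=
  Nat.beq ((List.zipWith (fun x y => 4 * x + y) A B).foldl (fun N z => N ||| 2 ^ z) 0) 65535

theorem testBit_fold (j : ℕ) : ∀ (l : List ℕ) (N : ℕ),
    (l.foldl (fun N z => N ||| 2 ^ z) N).testBit j = (N.testBit j || decide (j ∈ l))
  | [], N => by simp
  | a :: r, N => by
    rw [List.foldl_cons, testBit_fold j r, Nat.testBit_or, Nat.testBit_two_pow, Bool.or_assoc]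
    congr 1
    rw [← Bool.decide_or, decide_eq_decide, List.mem_cons, eq_comm]

/-- A square as a list. -/
def flat (f : Fin 4 → Fin 4 → Fin 4) : List ℕ :=
  (List.finRange 4).flatMap fun a => (List.finRange 4).map fun b => (f a b).val

theorem orth_flat (f g : Fin 4 → Fin 4 → Fin 4)
    (h : Function.Injective fun p : Fin 4 × Fin 4 => (f p.1 p.2, g p.1 p.2)) :
    orth (flat f) (flat g) = true := by
  have e : List.zipWith (fun x y => 4 * x + y) (flat f) (flat g) =
      (List.finRange 4).flatMap fun a => (List.finRange 4).map fun b => 4 * (f a b).val + (g a b).val := rfl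
  rw [orth, e, Nat.beq_eq]
  refine Nat.eq_of_testBit_eq fun j => ?_
  rw [testBit_fold, Nat.zero_testBit, Bool.false_or,
    show (65535 : ℕ) = 2 ^ 16 - 1 from rfl, Nat.testBit_two_pow_sub_one, decide_eq_decide]
  simp only [List.mem_flatMap, List.mem_map, List.mem_finRange, true_and]
  constructor
  · rintro ⟨a, b, rfl⟩
    have := (f a b).isLt
    have := (g a b).isLt
    omega
  · intro hj
    obtain ⟨⟨a, b⟩, hab⟩ := (Finite.injective_iff_surjective.1 h)
      (⟨j / 4, by omega⟩, ⟨j % 4, Nat.mod_lt _ (by omega)⟩)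
    simp only [Prod.ext_iff, Fin.ext_iff] at hab
    exact ⟨a, b, by omega⟩

/-- Row labels. -/
def rowIdx : List ℕ := (List.range 16).map (· / 4)

/-- Column labels. -/
def colIdx : List ℕ := (List.range 16).map (· % 4)

/-- The squares whose first row is the identity. -/
def cands : List (List ℕ) :=
  let P := [0, 1, 2, 3].permutations'
  ((P.flatMap fun r => P.flatMap fun s => P.map fun t => [0, 1, 2, 3] ++ r ++ s ++ t).filter
    fun A => orth A colIdx)

/-- First column the identity. -/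
def reduced (A : List ℕ) : Bool :=
  Nat.beq (A.getD 4 0) 1 && Nat.beq (A.getD 8 0) 2 && Nat.beq (A.getD 12 0) 3

theorem classify : (cands.all fun A => !(reduced A) || cands.all fun B => !(orth A B) ||
    cands.all fun C => !(orth A C && orth B C) ||
      (A == sqA && ((B == sqB && C == sqC) || (B == sqC && C == sqB)))) = true := by decide +kernel

theorem flat_mem_cands (f : Fin 4 → Fin 4 → Fin 4) (h0 : ∀ b, f 0 b = b)
    (hr : ∀ a, Function.Injective (f a)) (hc : ∀ b, Function.Injective fun a => f a b) :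
    flat f ∈ cands := by
  have hrow : ∀ a, ((List.finRange 4).map fun b => (f a b).val) ∈ [0, 1, 2, 3].permutations' := fun a => by
    rw [List.mem_permutations']
    refine List.perm_of_nodup_nodup_toFinset_eq ((List.nodup_finRange 4).map
      (Fin.val_injective.comp (hr a))) (by decide) ?_
    refine Finset.eq_of_subset_of_card_le (fun x hx => ?_) ?_
    · simp only [List.mem_toFinset, List.mem_map] at hx
      obtain ⟨b, -, rfl⟩ := hx
      exact (by decide : ∀ c : Fin 4, c.val ∈ [0, 1, 2, 3].toFinset) _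
    · refine le_of_le_of_eq ?_ (List.toFinset_card_of_nodup ((List.nodup_finRange 4).map (Fin.val_injective.comp (hr a)))).symm
      simp
  simp only [cands, List.mem_filter, List.mem_flatMap, List.mem_map]
  refine ⟨⟨_, hrow 1, _, hrow 2, _, hrow 3, ?_⟩, ?_⟩
  · have e : flat f = ((List.finRange 4).map fun b => (f 0 b).val) ++
        ((List.finRange 4).map fun b => (f 1 b).val) ++ ((List.finRange 4).map fun b => (f 2 b).val) ++
        ((List.finRange 4).map fun b => (f 3 b).val) := rfl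
    rw [e]
    simp only [h0]
    rfl
  · rw [show colIdx = flat fun _ b => b from rfl]
    refine orth_flat f (fun _ b => b) fun p q hpq => ?_
    simp only [Prod.mk.injEq] at hpq
    exact Prod.ext (hc q.2 (show f p.1 q.2 = f q.1 q.2 from hpq.2 ▸ hpq.1)) hpq.2

/-- Exchange of the last two columns. -/
def sw (x : Fin 21) : Fin 21 :=
  lab (if 17 ≤ x.val then x.val - 4 else if 13 ≤ x.val then x.val + 4 else x.val)

theorem sw_sw : ∀ x, sw (sw x) = x := by decide +kernel

theorem lines_swap : ∀ l ∈ lines, ∃ l' ∈ linesOf sqA sqC sqB, (setL l).image sw = setL l' := by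
  decide +kernel

variable {α : Type*} [Fintype α] [DecidableEq α] {L : Set (Finset α)}

theorem line_counts (hL : IsSteinerSystem 2 5 L) (hα : Fintype.card α = 21) :
    L.ncard = 21 ∧ (∀ x, ((blocks L).filter fun l => x ∈ l).card = 5) ∧
      ∀ l ∈ L, ∀ m ∈ L, l ≠ m → (l ∩ m).card = 1 := by
  have h := card_containing hL (X := (∅ : Finset α)) (by simp)
  simp [hα, Nat.choose_eq_descFactorial_div_factorial, Nat.descFactorial_succ, Nat.factorial] at h
  refine ⟨?_, fun x => ?_, fun l hl m hm hne => ?_⟩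
  · rw [Set.ncard_eq_toFinset_card _ (Set.toFinite L)]
    unfold blocks at h
    omega
  · have h := card_containing hL (X := {x}) (by simp)
    simp [hα, Nat.choose_eq_descFactorial_div_factorial, Nat.descFactorial_succ, Nat.factorial] at h
    omega
  · have m0 := moments hL m (i := 0) (by omega)
    have m1 := moments hL m (i := 1) (by omega)
    have z2 := meet_eq_zero hL hm (j := 2) (by omega) (by omega)
    have z3 := meet_eq_zero hL hm (j := 3) (by omega) (by omega)
    have z4 := meet_eq_zero hL hm (j := 4) (by omega) (by omega)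
    have z5 := meet_self hL hm (by omega)
    simp [hL.1 m hm, hα, Finset.sum_range_succ, Nat.choose_eq_descFactorial_div_factorial,
      Nat.descFactorial_succ, Nat.factorial, z2, z3, z4, z5] at m0 m1
    have hp := meet_pos (Y := m) hl
    have h2 : (l ∩ m).card < 2 := by
      by_contra hc
      exact hne (unique_block hL hl hm (by omega))
    interval_cases e : (l ∩ m).card
    · omega
    · rfl

/-- Every plane of order four is the model, relabelled. -/
theorem iso21 (hL : IsSteinerSystem 2 5 L) (hα : Fintype.card α = 21) :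
    ∃ e : Fin 21 ≃ α, (fun s => s.image e) '' plane21 = L := by
  classical
  obtain ⟨hcard, hthru, hone⟩ := line_counts hL hα
  obtain ⟨O⟩ : Nonempty α := Fintype.card_pos_iff.1 (by omega)
  let colE := ((blocks L).filter fun l => O ∈ l).equivFinOfCardEq (hthru O)
  let ln : Fin 5 → Finset α := fun i => (colE.symm i).1
  have hln : ∀ i, ln i ∈ L ∧ O ∈ ln i := fun i => by
    have h := (colE.symm i).2
    rw [Finset.mem_filter, mem_blocks] at h
    exact h
  have hinj : Function.Injective ln := fun i j h => colE.symm.injective (Subtype.ext h)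
  let col : Fin 5 → Finset α := fun i => (ln i).erase O
  have hcol4 : ∀ i, (col i).card = 4 := fun i => by
    rw [Finset.card_erase_of_mem (hln i).2, hL.1 _ (hln i).1]
  have hdisj : ∀ i j x, x ∈ col i → x ∈ col j → i = j := fun i j x hi hj => by
    rw [Finset.mem_erase] at hi hj
    by_contra hne
    refine absurd (hone _ (hln i).1 _ (hln j).1 fun h => hne (hinj h)) (Nat.ne_of_gt ?_)
    exact Finset.one_lt_card.2 ⟨x, Finset.mem_inter.2 ⟨hi.2, hj.2⟩, O,
      Finset.mem_inter.2 ⟨(hln i).2, (hln j).2⟩, hi.1⟩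
  -- the line through two points
  have join : ∀ p q : α, p ≠ q → ∃ l ∈ L, p ∈ l ∧ q ∈ l ∧ ∀ m ∈ L, p ∈ m → q ∈ m → m = l := by
    intro p q hpq
    obtain ⟨l, ⟨hl, hs⟩, hu⟩ := hL.2 {p, q} (Finset.card_pair hpq)
    exact ⟨l, hl, hs (by simp), hs (by simp), fun m hm h1 h2 => hu m ⟨hm, by
      simp [Finset.insert_subset_iff, h1, h2]⟩⟩
  -- a line off `O` meets each column once
  have meets : ∀ l ∈ L, O ∉ l → ∀ i, ∃ x ∈ col i, x ∈ l ∧ ∀ y ∈ col i, y ∈ l → y = x := by
    intro l hl hO i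
    obtain ⟨x, hx⟩ := Finset.card_eq_one.1 (hone l hl _ (hln i).1 fun h => hO (h ▸ (hln i).2))
    have hxm := Finset.mem_inter.1 (hx.symm ▸ Finset.mem_singleton_self x)
    refine ⟨x, Finset.mem_erase.2 ⟨fun h => hO (h ▸ hxm.1), hxm.2⟩, hxm.1, fun y hy hyl => ?_⟩
    have : y ∈ l ∩ ln i := Finset.mem_inter.2 ⟨hyl, (Finset.mem_erase.1 hy).2⟩
    rwa [hx, Finset.mem_singleton] at this
  have offO : ∀ i j p q, i ≠ j → p ∈ col i → q ∈ col j → ∀ l ∈ L, p ∈ l → q ∈ l → O ∉ l := by
    intro i j p q hij hp hq l hl hpl hql hO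
    have key : ∀ k r, r ∈ col k → r ∈ l → l = ln k := fun k r hr hrl => by
      by_contra hne
      refine absurd (hone _ hl _ (hln k).1 hne) (Nat.ne_of_gt ?_)
      exact Finset.one_lt_card.2 ⟨r, Finset.mem_inter.2 ⟨hrl, (Finset.mem_erase.1 hr).2⟩, O,
        Finset.mem_inter.2 ⟨hO, (hln k).2⟩, (Finset.mem_erase.1 hr).1⟩
    exact hij (hinj ((key i p hp hpl).symm.trans (key j q hq hql)))
  -- third point
  have third : ∀ i j p q, i ≠ j → p ∈ col i → q ∈ col j → ∀ k, ∃ x : α, x ∈ col k ∧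
      (∀ l ∈ L, p ∈ l → q ∈ l → x ∈ l) ∧ ∀ y ∈ col k, (∀ l ∈ L, p ∈ l → q ∈ l → y ∈ l) → y = x := by
    intro i j p q hij hp hq k
    have hne : p ≠ q := fun h => hij (hdisj i j p hp (h ▸ hq))
    obtain ⟨l, hl, hpl, hql, hu⟩ := join p q hne
    obtain ⟨x, hx, hxl, hxu⟩ := meets l hl (offO i j p q hij hp hq l hl hpl hql) k
    exact ⟨x, hx, fun m hm h1 h2 => (hu m hm h1 h2) ▸ hxl, fun y hy h => hxu y hy (h l hl hpl hql)⟩
  let enum : ∀ i, Fin 4 ≃ col i := fun i => ((col i).equivFinOfCardEq (hcol4 i)).symm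
  set X : α := (enum 0 0).1
  have hX : X ∈ col 0 := (enum 0 0).2
  set Q : Fin 4 → α := fun b => (enum 1 b).1
  have hQ : ∀ b, Q b ∈ col 1 := fun b => (enum 1 b).2
  have hQi : Function.Injective Q := fun b c h => (enum 1).injective (Subtype.ext h)
  choose R hR1 hR2 hR3 using fun (i : Fin 5) (b : Fin 4) => third 0 1 X (Q b) (by decide) hX (hQ b) i
  have hRi : ∀ i, i ≠ 0 → Function.Injective (R i) := fun i hi b c h => by
    by_contra hne
    have hx : X ≠ R i b := fun e => hi (hdisj i 0 X (e ▸ hR1 i b) hX)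
    obtain ⟨l, hl, hl1, hl2, hu⟩ := join X (R i b) hx
    have get : ∀ c, R i c = R i b → Q c ∈ l := fun c e => by
      obtain ⟨m, hm, m1, m2, -⟩ := join X (Q c) fun e => absurd (hdisj 0 1 X hX (e ▸ hQ c)) (by decide)
      rwa [← hu m hm m1 (e ▸ hR2 i c m hm m1 m2)]
    obtain ⟨x, -, -, hxu⟩ := meets l hl (offO 0 i X (R i b) (fun e => hi e.symm) hX (hR1 i b) l hl hl1 hl2) 1
    exact hne (hQi ((hxu _ (hQ b) (get b rfl)).trans (hxu _ (hQ c) (get c h.symm)).symm))
  choose P hP1 hP2 hP3 using fun a : Fin 4 => third 1 2 (Q 0) (R 2 a) (by decide) (hQ 0) (hR1 2 a) 0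
  have hPi : Function.Injective P := fun a c h => by
    by_contra hne
    have hq : Q 0 ≠ P a := fun e => absurd (hdisj 1 0 _ (hQ 0) (e ▸ hP1 a)) (by decide)
    obtain ⟨l, hl, hl1, hl2, hu⟩ := join (Q 0) (P a) hq
    have get : ∀ c, P c = P a → R 2 c ∈ l := fun c e => by
      obtain ⟨m, hm, m1, m2, -⟩ := join (Q 0) (R 2 c) fun e =>
        absurd (hdisj 1 2 _ (hQ 0) (e ▸ hR1 2 c)) (by decide)
      rwa [← hu m hm m1 (e ▸ hP2 c m hm m1 m2)]
    obtain ⟨x, -, -, hxu⟩ := meets l hl (offO 1 0 _ _ (by decide) (hQ 0) (hP1 a) l hl hl1 hl2) 2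
    exact hne (hRi 2 (by decide) ((hxu _ (hR1 2 a) (get a rfl)).trans (hxu _ (hR1 2 c) (get c h.symm)).symm))
  have hP0 : P 0 = X := (hP3 0 X hX fun l hl h1 h2 => by
    obtain ⟨m, hm, m1, m2, -⟩ := join X (Q 0) fun e => absurd (hdisj 0 1 X hX (e ▸ hQ 0)) (by decide)
    have hne : Q 0 ≠ R 2 0 := fun e => absurd (hdisj 1 2 _ (hQ 0) (e ▸ hR1 2 0)) (by decide)
    obtain ⟨n, hn, n1, n2, nu⟩ := join _ _ hne
    rw [nu l hl h1 h2, ← nu m hm m2 (hR2 2 0 m hm m1 m2)]
    exact m1).symm
  let pt : Fin 5 → Fin 4 → α := ![P, Q, R 2, R 3, R 4]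
  have hpt : ∀ i b, pt i b ∈ col i := by
    intro i b
    fin_cases i
    exacts [hP1 b, hQ b, hR1 2 b, hR1 3 b, hR1 4 b]
  have hpti : ∀ i, Function.Injective (pt i) := by
    intro i
    fin_cases i
    exacts [hPi, hQi, hRi 2 (by decide), hRi 3 (by decide), hRi 4 (by decide)]
  let f : Fin 21 → α := Fin.cases O fun j : Fin 20 =>
    pt ((finProdFinEquiv (m := 5) (n := 4)).symm j).1 ((finProdFinEquiv (m := 5) (n := 4)).symm j).2
  have hf : Function.Bijective f := by
    refine (Fintype.bijective_iff_injective_and_card f).2 ⟨?_, by rw [Fintype.card_fin, hα]⟩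
    refine Fin.cases ?_ (fun j => ?_)
    · refine Fin.cases (fun _ => rfl) fun k h => ?_
      exact absurd h.symm (Finset.mem_erase.1 (hpt _ _)).1
    · refine Fin.cases (fun h => absurd h (Finset.mem_erase.1 (hpt _ _)).1) fun k h => ?_
      have h' : pt ((finProdFinEquiv (m := 5) (n := 4)).symm j).1 ((finProdFinEquiv (m := 5) (n := 4)).symm j).2 =
          pt ((finProdFinEquiv (m := 5) (n := 4)).symm k).1 ((finProdFinEquiv (m := 5) (n := 4)).symm k).2 := h
      have e1 := hdisj _ _ _ (hpt _ _) (h' ▸ hpt ((finProdFinEquiv (m := 5) (n := 4)).symm k).1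
        ((finProdFinEquiv (m := 5) (n := 4)).symm k).2)
      refine congrArg Fin.succ ((finProdFinEquiv (m := 5) (n := 4)).symm.injective (Prod.ext e1 ?_))
      exact hpti _ (h'.trans (by rw [e1]))
  have fval : ∀ (i : Fin 5) (b : Fin 4), f (lab (1 + 4 * i.val + b.val)) = pt i b := fun i b => by
    have hi := i.isLt
    have hb := b.isLt
    have e : lab (1 + 4 * i.val + b.val) = Fin.succ (finProdFinEquiv (i, b)) := Fin.ext (by
      rw [lab_val (by omega), Fin.val_succ, finProdFinEquiv_apply_val]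
      show 1 + 4 * i.val + b.val = b.val + 4 * i.val + 1
      omega)
    rw [e]
    show pt (finProdFinEquiv.symm (finProdFinEquiv (i, b))).1
      (finProdFinEquiv.symm (finProdFinEquiv (i, b))).2 = _
    rw [Equiv.symm_apply_apply]
  -- the squares
  have hexT : ∀ (i : Fin 5) (a b : Fin 4), ∃ c, ∀ l ∈ L, P a ∈ l → Q b ∈ l → pt i c ∈ l := by
    intro i a b
    obtain ⟨x, hx, h1, -⟩ := third 0 1 (P a) (Q b) (by decide) (hP1 a) (hQ b) i
    have himg : Finset.univ.image (pt i) = col i := by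
      refine Finset.eq_of_subset_of_card_le (fun y hy => ?_) ?_
      · obtain ⟨c, -, rfl⟩ := Finset.mem_image.1 hy
        exact hpt i c
      · rw [Finset.card_image_of_injective _ (hpti i), hcol4]; simp
    obtain ⟨c, -, hc⟩ := Finset.mem_image.1 (himg.symm ▸ hx)
    exact ⟨c, fun l hl e1 e2 => hc ▸ h1 l hl e1 e2⟩
  choose T hT using hexT
  have hexL : ∀ a b, ∃ l ∈ L, P a ∈ l ∧ Q b ∈ l := fun a b => by
    obtain ⟨l, h1, h2, h3, -⟩ := join (P a) (Q b) fun e => absurd (hdisj 0 1 _ (hP1 a) (e ▸ hQ b)) (by decide)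
    exact ⟨l, h1, h2, h3⟩
  choose LL hLL using hexL
  have hLO : ∀ a b, O ∉ LL a b := fun a b =>
    offO 0 1 _ _ (by decide) (hP1 a) (hQ b) _ (hLL a b).1 (hLL a b).2.1 (hLL a b).2.2
  have hTl : ∀ i a b, pt i (T i a b) ∈ LL a b := fun i a b =>
    hT i a b _ (hLL a b).1 (hLL a b).2.1 (hLL a b).2.2
  have uniq : ∀ i a b c, pt i c ∈ LL a b → c = T i a b := fun i a b c h => by
    obtain ⟨x, -, -, hu⟩ := meets _ (hLL a b).1 (hLO a b) i
    exact hpti i ((hu _ (hpt i c) h).trans (hu _ (hpt i _) (hTl i a b)).symm)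
  have T0 : ∀ a b, T 0 a b = a := fun a b => (uniq 0 a b a (hLL a b).2.1).symm
  have T1 : ∀ a b, T 1 a b = b := fun a b => (uniq 1 a b b (hLL a b).2.2).symm
  have orthT : ∀ i j, i ≠ j →
      Function.Injective fun p : Fin 4 × Fin 4 => (T i p.1 p.2, T j p.1 p.2) := by
    rintro i j hij ⟨a, b⟩ ⟨a', b'⟩ h
    simp only [Prod.mk.injEq] at h
    have hne : pt i (T i a b) ≠ pt j (T j a b) := fun e => hij (hdisj i j (pt i (T i a b)) (hpt _ _) (e ▸ hpt j (T j a b)))
    obtain ⟨l, hl, h1, h2, hu⟩ := join _ _ hne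
    have e1 := hu _ (hLL a b).1 (hTl i a b) (hTl j a b)
    have e2 := hu _ (hLL a' b').1 (h.1 ▸ hTl i a' b') (h.2 ▸ hTl j a' b')
    have ea : a' = a := (uniq 0 a b a' (by rw [e1, ← e2]; exact (hLL a' b').2.1)).trans (T0 a b)
    have eb : b' = b := (uniq 1 a b b' (by rw [e1, ← e2]; exact (hLL a' b').2.2)).trans (T1 a b)
    rw [ea, eb]
  have row0 : ∀ i : Fin 5, i = 2 ∨ i = 3 ∨ i = 4 → ∀ b, T i 0 b = b := by
    intro i hi b
    refine (uniq i 0 b b ?_).symm
    have := hR2 i b _ (hLL 0 b).1 (hP0 ▸ (hLL 0 b).2.1) (hLL 0 b).2.2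
    rcases hi with rfl | rfl | rfl <;> exact this
  have col0 : ∀ a, T 2 a 0 = a := by
    intro a
    refine (uniq 2 a 0 a ?_).symm
    have hne : Q 0 ≠ R 2 a := fun e => absurd (hdisj 1 2 _ (hQ 0) (e ▸ hR1 2 a)) (by decide)
    obtain ⟨l, hl, h1, h2, -⟩ := join _ _ hne
    obtain ⟨m, hm, m1, m2, mu⟩ := join (Q 0) (P a) fun e => absurd (hdisj 1 0 _ (hQ 0) (e ▸ hP1 a)) (by decide)
    show R 2 a ∈ LL a 0
    rw [mu _ (hLL a 0).1 (hLL a 0).2.2 (hLL a 0).2.1, ← mu l hl h1 (hP2 a l hl h1 h2)]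
    exact h2
  have memc : ∀ i : Fin 5, i = 2 ∨ i = 3 ∨ i = 4 → flat (T i) ∈ cands := by
    intro i hi
    have hi0 : i ≠ 0 := by rcases hi with rfl | rfl | rfl <;> decide
    have hi1 : i ≠ 1 := by rcases hi with rfl | rfl | rfl <;> decide
    refine flat_mem_cands _ (row0 i hi) (fun a b b' h => ?_) (fun b a a' h => ?_)
    · exact congrArg Prod.snd (orthT i 0 hi0 (a₁ := (a, b)) (a₂ := (a, b')) (by simp [h, T0]))
    · exact congrArg Prod.fst (orthT i 1 hi1 (a₁ := (a, b)) (a₂ := (a', b)) (by simp at h ⊢; simp [h, T1]))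
  have hred : reduced (flat (T 2)) = true := by
    simp [reduced, flat, List.finRange_succ, col0]
  have hcls := classify
  simp only [List.all_eq_true, Bool.or_eq_true, Bool.and_eq_true, Bool.not_eq_true', beq_iff_eq] at hcls
  have hsq : flat (T 2) = sqA ∧ ((flat (T 3) = sqB ∧ flat (T 4) = sqC) ∨
      (flat (T 3) = sqC ∧ flat (T 4) = sqB)) := by
    have o23 := orth_flat _ _ (orthT 2 3 (by decide))
    have o24 := orth_flat _ _ (orthT 2 4 (by decide))
    have o34 := orth_flat _ _ (orthT 3 4 (by decide))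
    rcases hcls _ (memc 2 (Or.inl rfl)) with h | h
    · rw [hred] at h; simp at h
    rcases h _ (memc 3 (Or.inr (Or.inl rfl))) with h | h
    · rw [o23] at h; simp at h
    rcases h _ (memc 4 (Or.inr (Or.inr rfl))) with h | h
    · rw [o24, o34] at h; simp at h
    exact h
  let E : Fin 21 ≃ α := Equiv.ofBijective f hf
  have hlines : ∀ l ∈ linesOf (flat (T 2)) (flat (T 3)) (flat (T 4)), ∃ m ∈ L, ∀ x ∈ l, f (lab x) ∈ m := by
    intro l hl
    simp only [linesOf, List.mem_append, List.mem_map, List.mem_range] at hl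
    rcases hl with ⟨i, hi, rfl⟩ | ⟨k, hk, rfl⟩
    · refine ⟨ln ⟨i, hi⟩, (hln _).1, fun x hx => ?_⟩
      simp only [List.mem_cons, List.not_mem_nil, or_false] at hx
      rcases hx with rfl | hx
      · exact (hln _).2
      · obtain ⟨b, rfl⟩ : ∃ b : Fin 4, x = 1 + 4 * i + b.val := ⟨⟨x - (1 + 4 * i), by omega⟩, by
          show x = 1 + 4 * i + (x - (1 + 4 * i)); omega⟩
        rw [fval ⟨i, hi⟩ b]
        exact (Finset.mem_erase.1 (hpt _ _)).2
    · obtain ⟨a, b, rfl⟩ : ∃ a b : Fin 4, k = 4 * a.val + b.val :=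
        ⟨⟨k / 4, by omega⟩, ⟨k % 4, by omega⟩, by show k = 4 * (k / 4) + k % 4; omega⟩
      have hget : ∀ g : Fin 4 → Fin 4 → Fin 4, (flat g).getD (4 * a.val + b.val) 0 = (g a b).val := by
        intro g
        fin_cases a <;> fin_cases b <;> rfl
      rw [hget, hget, hget, show (4 * a.val + b.val) / 4 = a.val by omega,
        show (4 * a.val + b.val) % 4 = b.val by omega]
      refine ⟨LL a b, (hLL a b).1, fun x hx => ?_⟩
      simp only [List.mem_cons, List.not_mem_nil, or_false] at hx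
      rcases hx with rfl | rfl | rfl | rfl | rfl
      · exact fval 0 a ▸ (hLL a b).2.1
      · exact fval 1 b ▸ (hLL a b).2.2
      · exact fval 2 (T 2 a b) ▸ hTl 2 a b
      · exact fval 3 (T 3 a b) ▸ hTl 3 a b
      · exact fval 4 (T 4 a b) ▸ hTl 4 a b
  -- a relabelling onto lines finishes
  have finish : ∀ e : Fin 21 ≃ α, (∀ l ∈ lines, ∃ m ∈ L, (setL l).image e ⊆ m) →
      (fun s => s.image e) '' plane21 = L := by
    intro e h
    have hp : plane21 = ↑(lines.map setL).toFinset := by ext s; simp [plane21]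
    refine Set.eq_of_subset_of_ncard_le ?_ ?_ (Set.toFinite _)
    · rintro _ ⟨_, ⟨l, hl, rfl⟩, rfl⟩
      obtain ⟨m, hm, hs⟩ := h l hl
      have := Finset.eq_of_subset_of_card_le hs
        (by rw [Finset.card_image_of_injective _ e.injective, card_setL hl, hL.1 m hm])
      show (setL l).image e ∈ L
      rwa [this]
    · rw [Set.ncard_image_of_injective _ (Finset.image_injective e.injective), hp,
        Set.ncard_coe_finset, card_image_lines, hcard]
  obtain ⟨eA, ⟨eB, eC⟩ | ⟨eB, eC⟩⟩ := hsq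
  · refine ⟨E, finish E fun l hl => ?_⟩
    obtain ⟨m, hm, h⟩ := hlines l (by rw [eA, eB, eC]; exact hl)
    refine ⟨m, hm, fun y hy => ?_⟩
    simp only [setL, Finset.mem_image, List.mem_toFinset, List.mem_map] at hy
    obtain ⟨_, ⟨x, hx, rfl⟩, rfl⟩ := hy
    exact h x hx
  · let S : Fin 21 ≃ Fin 21 := ⟨sw, sw, sw_sw, sw_sw⟩
    refine ⟨S.trans E, finish _ fun l hl => ?_⟩
    obtain ⟨l', hl', e'⟩ := lines_swap l hl
    obtain ⟨m, hm, h⟩ := hlines l' (by rw [eA, eB, eC]; exact hl')
    refine ⟨m, hm, ?_⟩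
    rw [show (setL l).image (S.trans E) = ((setL l).image sw).image E from by rw [Finset.image_image]; rfl, e']
    intro y hy
    simp only [setL, Finset.mem_image, List.mem_toFinset, List.mem_map] at hy
    obtain ⟨_, ⟨x, hx, rfl⟩, rfl⟩ := hy
    exact h x hx

end CfsgLib.Steiner.Plane21
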