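/-
Bit computations on arcs and hyperovals of the plane of order four.
-/
import Cfsg.Agent.Steiner.Plane21

set_option autoImplicit false

namespace CfsgLib.Steiner.Plane21

/-- The mask of a list. -/
def maskL (l : List ℕ) : ℕ := l.foldl (fun N z => N ||| 2 ^ z) 0

/-- At most one bit. -/
def atMost1 (y : ℕ) : Bool := Nat.beq (y &&& (y - 1)) 0

theorem atMost1_sublists :
    ∀ l ∈ lines, ∀ s ∈ l.sublists, atMost1 (maskL s) = decide (s.length ≤ 1) := by decide +kernel

theorem lineMasks_eq : lineMasks = lines.map maskL := by decide +kernel

/-- The points completing two points of the masked set to a line. -/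
def forb (m : ℕ) : ℕ := lineMasks.foldl (fun F l => bif atMost1 (l &&& m) then F else F ||| l) 0

/-- The one-point extensions of an arc. -/
def grow (m : ℕ) : List ℕ :=
  let F := forb m
  ((List.range 21).filter fun x => Nat.blt m (2 ^ x) && !(F.testBit x)).map fun x => m ||| 2 ^ x

/-- The arcs by size. -/
def arcs : ℕ → List ℕ
  | 0 => [0]
  | k + 1 => (arcs k).flatMap grow

theorem arcs_four : (arcs 4).length = 2520 := by decide +kernel

theorem arcs_ovalData : arcs 6 = ovalData.map Prod.fst := by decide +kernel

theorem ovalData_length : ovalData.length = 168 := by decide +kernel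

/-- The points free for extension. -/
def free (m : ℕ) : List ℕ :=
  let F := m ||| forb m
  (List.range 21).filter fun x => !(F.testBit x)

/-- A four-arc has exactly two compatible completions. -/
def okFour (m : ℕ) : Bool :=
  match free m with
  | [a, b] => !((forb (m ||| 2 ^ a)).testBit b)
  | _ => false

theorem four_ok : (arcs 4).all okFour = true := by decide +kernel

/-- The points of a mask. -/
def ptsOf (m : ℕ) : List ℕ := (List.range 21).filter fun x => m.testBit x

/-- A collineation table. -/
def okColl (g : List ℕ) : Bool :=
  Nat.beq g.length 21 && g.all (fun x => Nat.blt x 21) && (List.range 21).all (fun y => g.contains y) &&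
    lines.all fun l => lineMasks.contains (maskL (l.map fun x => g.getD x 0))

/-- A hyperoval's record: transposition and six-cycle. -/
def okRow : ℕ × List ℕ × List ℕ → Bool
  | (H, g1, g2) =>
    let h := ptsOf H
    let secs := lineMasks.filter fun l => !(atMost1 (l &&& H))
    okColl g1 && okColl g2 && Nat.beq h.length 6 &&
      (h.map (fun x => g1.getD x 0) == h.getD 1 0 :: h.getD 0 0 :: h.drop 2) &&
      (h.map (fun x => g2.getD x 0) == h.drop 1 ++ h.take 1) &&
      (List.range 21).all fun x => H.testBit x || secs.any fun l1 =>
        l1.testBit x && secs.any fun l2 => Nat.beq (l1 &&& l2) (2 ^ x)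

end CfsgLib.Steiner.Plane21
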