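/-
The collineation records check.
-/
import Cfsg.Agent.Steiner.Ovals21Calc

set_option autoImplicit false

namespace CfsgLib.Steiner.Plane21

theorem data_ok : ovalData.all okRow = true := by decide +kernel

end CfsgLib.Steiner.Plane21
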