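/-
Arcs and hyperovals in the plane of order four.
-/
import Cfsg.Agent.Steiner.Ovals21Calc
import Cfsg.Agent.Steiner.Ovals21Coll

set_option autoImplicit false

namespace CfsgLib.Steiner.Plane21

open Cfsg MulAction
open scoped Pointwise

/-- The bit mask of a set of labels. -/
def mask (s : Finset (Fin 21)) : ℕ := Nat.ofBits fun i => decide (i ∈ s)

theorem testBit_mask (s : Finset (Fin 21)) (i : Fin 21) : (mask s).testBit i.val = decide (i ∈ s) := by
  rw [mask, Nat.testBit_ofBits_lt _ _ i.isLt]

theorem mask_lt (s : Finset (Fin 21)) : mask s < 2 ^ 21 := Nat.ofBits_lt_two_pow _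

/-- The set of a mask. -/
def setM (m : ℕ) : Finset (Fin 21) := Finset.univ.filter fun i => m.testBit i.val

theorem mem_setM {m : ℕ} {i : Fin 21} : i ∈ setM m ↔ m.testBit i.val = true := by simp [setM]

theorem setM_mask (s : Finset (Fin 21)) : setM (mask s) = s := by
  ext i; simp [setM, testBit_mask]

theorem mask_setM {m : ℕ} (h : m < 2 ^ 21) : mask (setM m) = m := by
  refine Nat.eq_of_testBit_eq fun j => ?_
  rcases lt_or_ge j 21 with hj | hj
  · rw [show j = (⟨j, hj⟩ : Fin 21).val from rfl, testBit_mask]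
    simp [setM]
  · rw [Nat.testBit_lt_two_pow (lt_of_lt_of_le (mask_lt _) (Nat.pow_le_pow_right (by omega) hj)),
      Nat.testBit_lt_two_pow (lt_of_lt_of_le h (Nat.pow_le_pow_right (by omega) hj))]

/-- A set no line meets more than twice. -/
def Indep (S : Finset (Fin 21)) : Prop := ∀ s ∈ plane21, (s ∩ S).card ≤ 2

theorem testBit_maskL (l : List ℕ) (j : ℕ) : (maskL l).testBit j = decide (j ∈ l) := by
  rw [maskL, testBit_fold, Nat.zero_testBit, Bool.false_or]

theorem setM_maskL {l : List ℕ} (hl : l ∈ lines) : setM (maskL l) = setL l := by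
  ext x; simp [mem_setM, testBit_maskL, mem_setL hl]

/-- Few common points, on masks. -/
theorem atMost1_iff {l : List ℕ} (hl : l ∈ lines) (S : Finset (Fin 21)) :
    atMost1 (maskL l &&& mask S) = true ↔ (setL l ∩ S).card ≤ 1 := by
  set t := l.filter fun x => decide (lab x ∈ S) with ht
  have hlt := (lines_facts l hl).1
  have e : maskL l &&& mask S = maskL t := by
    refine Nat.eq_of_testBit_eq fun j => ?_
    rw [Nat.testBit_and, testBit_maskL, testBit_maskL]
    by_cases hj : j ∈ l
    · have h := testBit_mask S (lab j)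
      rw [lab_val (hlt j hj)] at h
      rw [decide_eq_true hj, Bool.true_and, h, decide_eq_decide, ht, List.mem_filter, decide_eq_true_eq]
      exact (and_iff_right hj).symm
    · have : j ∉ t := fun h => hj (List.mem_of_mem_filter h)
      rw [decide_eq_false hj, decide_eq_false this, Bool.false_and]
  have hc : (setL l ∩ S).card = t.length := by
    rw [← List.length_map (f := lab), ← List.toFinset_card_of_nodup
      ((lines_facts l hl).2.1.sublist (List.filter_sublist.map lab))]
    refine congrArg Finset.card (Finset.ext fun x => ?_)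
    simp only [setL, Finset.mem_inter, List.mem_toFinset, List.mem_map, ht, List.mem_filter,
      decide_eq_true_eq]
    exact ⟨fun ⟨⟨a, ha, e⟩, hx⟩ => ⟨a, ⟨ha, e ▸ hx⟩, e⟩, fun ⟨a, ⟨ha, hS⟩, e⟩ => ⟨⟨a, ha, e⟩, e ▸ hS⟩⟩
  rw [e, atMost1_sublists l hl t (List.mem_sublists.2 List.filter_sublist), decide_eq_true_eq, hc]

theorem testBit_forb_fold (m j : ℕ) : ∀ (L : List ℕ) (F : ℕ),
    (L.foldl (fun F l => bif atMost1 (l &&& m) then F else F ||| l) F).testBit j = true ↔
      F.testBit j = true ∨ ∃ l ∈ L, atMost1 (l &&& m) = false ∧ l.testBit j = true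
  | [], F => by simp
  | a :: r, F => by
    rw [List.foldl_cons, testBit_forb_fold m j r]
    cases h : atMost1 (a &&& m) <;> simp [h, or_assoc]

theorem forb_iff (S : Finset (Fin 21)) (x : Fin 21) :
    (forb (mask S)).testBit x.val = true ↔ ∃ s ∈ plane21, x ∈ s ∧ 2 ≤ (s ∩ S).card := by
  rw [forb, testBit_forb_fold, Nat.zero_testBit, lineMasks_eq]
  simp only [Bool.false_eq_true, false_or, List.mem_map, exists_exists_and_eq_and, ← Bool.not_eq_true]
  constructor
  · rintro ⟨l, hl, h1, h2⟩
    rw [atMost1_iff hl] at h1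
    exact ⟨setL l, ⟨l, hl, rfl⟩, (mem_setL hl).2 (by simpa [testBit_maskL] using h2), by omega⟩
  · rintro ⟨_, ⟨l, hl, rfl⟩, h1, h2⟩
    refine ⟨l, hl, ?_, by simpa [testBit_maskL] using (mem_setL hl).1 h1⟩
    rw [atMost1_iff hl]
    omega

theorem indep_insert {S : Finset (Fin 21)} {x : Fin 21} (hS : Indep S) (hx : x ∉ S) :
    Indep (insert x S) ↔ (forb (mask S)).testBit x.val = false := by
  rw [← Bool.not_eq_true, forb_iff]
  constructor
  · rintro h ⟨s, hs, hxs, h2⟩
    have := h s hs
    rw [Finset.inter_insert_of_mem hxs,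
      Finset.card_insert_of_notMem fun e => hx (Finset.mem_inter.1 e).2] at this
    omega
  · intro h s hs
    by_cases hxs : x ∈ s
    · rw [Finset.inter_insert_of_mem hxs, Finset.card_insert_of_notMem fun e => hx (Finset.mem_inter.1 e).2]
      by_contra hc
      exact h ⟨s, hs, hxs, by omega⟩
    · rw [Finset.inter_insert_of_notMem hxs]; exact hS s hs

theorem Indep.mono {S T : Finset (Fin 21)} (h : Indep T) (hST : S ⊆ T) : Indep S := fun s hs =>
  le_trans (Finset.card_le_card (Finset.inter_subset_inter_left hST)) (h s hs)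

theorem mem_grow {m n : ℕ} : n ∈ grow m ↔
    ∃ x, x < 21 ∧ m < 2 ^ x ∧ (forb m).testBit x = false ∧ n = m ||| 2 ^ x := by
  simp only [grow, List.mem_map, List.mem_filter, List.mem_range, Bool.and_eq_true, Nat.blt_eq,
    Bool.not_eq_true']
  exact ⟨fun ⟨x, ⟨h1, h2, h3⟩, e⟩ => ⟨x, h1, h2, h3, e.symm⟩,
    fun ⟨x, h1, h2, h3, e⟩ => ⟨x, ⟨h1, h2, h3⟩, e.symm⟩⟩

theorem mask_insert {S : Finset (Fin 21)} {x : Fin 21} :
    mask (insert x S) = mask S ||| 2 ^ x.val := by
  refine Nat.eq_of_testBit_eq fun j => ?_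
  rcases lt_or_ge j 21 with hj | hj
  · rw [Nat.testBit_or, show j = (⟨j, hj⟩ : Fin 21).val from rfl, testBit_mask, testBit_mask,
      Nat.testBit_two_pow, ← Bool.decide_or, decide_eq_decide, Finset.mem_insert, Fin.ext_iff, or_comm,
      eq_comm (a := x.val)]
  · rw [Nat.testBit_lt_two_pow (lt_of_lt_of_le (mask_lt _) (Nat.pow_le_pow_right (by omega) hj)),
      Nat.testBit_or, Nat.testBit_lt_two_pow (lt_of_lt_of_le (mask_lt _) (Nat.pow_le_pow_right (by omega) hj)),
      Nat.testBit_two_pow, decide_eq_false (by omega), Bool.or_false]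

theorem arcs_spec : ∀ (k : ℕ), (arcs k).Nodup ∧
    ∀ m, m ∈ arcs k ↔ ∃ S : Finset (Fin 21), S.card = k ∧ Indep S ∧ mask S = m
  | 0 => by
    refine ⟨List.nodup_singleton 0, fun m => ?_⟩
    simp only [arcs, List.mem_singleton]
    constructor
    · rintro rfl
      exact ⟨∅, rfl, fun s _ => by simp, by decide +kernel⟩
    · rintro ⟨S, hS, -, rfl⟩
      rw [Finset.card_eq_zero.1 hS]
      decide +kernel
  | k + 1 => by
    obtain ⟨hnd, hspec⟩ := arcs_spec k
    refine ⟨?_, fun m => ?_⟩
    · simp only [arcs]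
      refine List.nodup_flatMap.2 ⟨fun a _ => ?_, ?_⟩
      · refine List.Nodup.map_on ?_ (List.nodup_range.filter _)
        intro x hx y hy e
        simp only [List.mem_filter, Bool.and_eq_true, Nat.blt_eq] at hx hy
        have := congrArg (Nat.testBit · x) e
        simp only [Nat.testBit_or, Nat.testBit_lt_two_pow hx.2.1, Nat.testBit_two_pow_self,
          Bool.false_or, Nat.testBit_two_pow] at this
        exact (of_decide_eq_true this.symm).symm
      · refine hnd.imp fun {a b} hab n hna hnb => hab ?_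
        obtain ⟨x, -, hx, -, rfl⟩ := mem_grow.1 hna
        obtain ⟨y, -, hy, -, e⟩ := mem_grow.1 hnb
        have hxy : x = y := by
          rcases Nat.lt_trichotomy x y with h | h | h
          · exfalso
            have := congrArg (Nat.testBit · y) e
            simp only [Nat.testBit_or, Nat.testBit_two_pow_self, Bool.or_true,
              Nat.testBit_two_pow_of_ne h.ne, Bool.or_false] at this
            rw [Nat.testBit_lt_two_pow (lt_trans hx (Nat.pow_lt_pow_right (by omega) h))] at this
            simp at this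
          · exact h
          · exfalso
            have := congrArg (Nat.testBit · x) e
            simp only [Nat.testBit_or, Nat.testBit_two_pow_self, Bool.or_true,
              Nat.testBit_two_pow_of_ne h.ne, Bool.or_false] at this
            rw [Nat.testBit_lt_two_pow (lt_trans hy (Nat.pow_lt_pow_right (by omega) h))] at this
            simp at this
        subst hxy
        refine Nat.eq_of_testBit_eq fun j => ?_
        by_cases hj : x = j
        · subst hj
          rw [Nat.testBit_lt_two_pow hx, Nat.testBit_lt_two_pow hy]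
        · have := congrArg (Nat.testBit · j) e
          simpa [Nat.testBit_or, Nat.testBit_two_pow_of_ne hj] using this
    · simp only [arcs, List.mem_flatMap]
      constructor
      · rintro ⟨a, ha, hm⟩
        obtain ⟨S, hS, hSi, rfl⟩ := (hspec a).1 ha
        obtain ⟨x, hx, hlt, hi, rfl⟩ := mem_grow.1 hm
        have hxS : (⟨x, hx⟩ : Fin 21) ∉ S := fun h => by
          have := testBit_mask S ⟨x, hx⟩
          rw [decide_eq_true h] at this
          simp only at this
          rw [Nat.testBit_lt_two_pow hlt] at this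
          simp at this
        refine ⟨insert ⟨x, hx⟩ S, by rw [Finset.card_insert_of_notMem hxS, hS], ?_, mask_insert⟩
        exact (indep_insert hSi hxS).2 hi
      · rintro ⟨S, hS, hind, rfl⟩
        have hne : S.Nonempty := Finset.card_pos.1 (by omega)
        set x := S.max' hne
        have hxS : x ∈ S := S.max'_mem hne
        refine ⟨mask (S.erase x), (hspec _).2 ⟨_, by rw [Finset.card_erase_of_mem hxS, hS]; rfl,
          hind.mono (Finset.erase_subset _ _), rfl⟩, mem_grow.2 ⟨x.val, x.isLt, ?_, ?_, ?_⟩⟩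
        · refine Nat.lt_pow_two_of_testBit _ fun j hj => ?_
          rcases lt_or_ge j 21 with h | h
          · rw [show j = (⟨j, h⟩ : Fin 21).val from rfl, testBit_mask, decide_eq_false_iff_not,
              Finset.mem_erase]
            rintro ⟨h1, h2⟩
            have h3 : j ≤ x.val := Fin.le_def.1 (S.le_max' _ h2)
            exact h1 (Fin.ext (show j = x.val by omega))
          · exact Nat.testBit_lt_two_pow (lt_of_lt_of_le (mask_lt _) (Nat.pow_le_pow_right (by omega) h))
        · rw [← indep_insert (hind.mono (Finset.erase_subset _ _)) (Finset.notMem_erase _ _),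
            Finset.insert_erase hxS]
          exact hind
        · rw [← mask_insert, Finset.insert_erase hxS]

theorem ncard_indep (k : ℕ) : {S : Finset (Fin 21) | S.card = k ∧ Indep S}.ncard = (arcs k).length := by
  obtain ⟨hnd, hspec⟩ := arcs_spec k
  rw [← List.toFinset_card_of_nodup hnd, ← Set.ncard_coe_finset,
    ← Set.ncard_image_of_injective _ (Function.LeftInverse.injective setM_mask : Function.Injective mask)]
  refine congrArg Set.ncard (Set.ext fun m => ?_)
  simp only [Set.mem_image, Set.mem_setOf_eq, List.coe_toFinset, hspec]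
  exact ⟨fun ⟨S, ⟨h1, h2⟩, e⟩ => ⟨S, h1, h2, e⟩, fun ⟨S, h1, h2, e⟩ => ⟨S, ⟨h1, h2⟩, e⟩⟩

theorem ncard_ovals : {S : Finset (Fin 21) | S.card = 6 ∧ Indep S}.ncard = 168 := by
  rw [ncard_indep, arcs_ovalData, List.length_map, ovalData_length]

theorem unique_oval {S : Finset (Fin 21)} (hS : S.card = 4) (hi : Indep S) :
    ∃! H : Finset (Fin 21), (H.card = 6 ∧ Indep H) ∧ S ⊆ H := by
  have hok := List.all_eq_true.1 four_ok _ (((arcs_spec 4).2 _).2 ⟨S, hS, hi, rfl⟩)
  have hfree : ∀ x : Fin 21, x.val ∈ free (mask S) ↔ x ∉ S ∧ Indep (insert x S) := fun x => by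
    simp only [free, List.mem_filter, List.mem_range, x.isLt, true_and, Bool.not_eq_true',
      Nat.testBit_or, Bool.or_eq_false_iff, testBit_mask, decide_eq_false_iff_not]
    exact and_congr_right fun hx => (indep_insert hi hx).symm
  have hnd : (free (mask S)).Nodup := List.nodup_range.filter _
  have hlt : ∀ y ∈ free (mask S), y < 21 := fun y hy => by
    rw [free] at hy
    exact List.mem_range.1 (List.mem_of_mem_filter hy)
  generalize hl : free (mask S) = l at hfree hnd hlt
  rw [okFour, hl] at hok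
  obtain ⟨a, b, rfl⟩ : ∃ a b, l = [a, b] := by
    match l, hok with
    | [a, b], _ => exact ⟨a, b, rfl⟩
  simp only [Bool.not_eq_true'] at hok
  have ha : a < 21 := hlt a (by simp)
  have hb : b < 21 := hlt b (by simp)
  set A : Fin 21 := ⟨a, ha⟩ with hA
  set B : Fin 21 := ⟨b, hb⟩ with hB
  obtain ⟨hAS, hAi⟩ := (hfree A).1 (by simp [hA])
  obtain ⟨hBS, -⟩ := (hfree B).1 (by simp [hB])
  have hBA : B ∉ insert A S := by
    simp only [Finset.mem_insert, not_or, hBS, not_false_iff, and_true]
    intro e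
    simp [hA, hB] at e
    simp [e] at hnd
  have hi6 : Indep (insert B (insert A S)) := (indep_insert hAi hBA).2 (by rw [mask_insert]; exact hok)
  refine ⟨insert B (insert A S), ⟨⟨by
      rw [Finset.card_insert_of_notMem hBA, Finset.card_insert_of_notMem hAS, hS], hi6⟩,
    (Finset.subset_insert _ _).trans (Finset.subset_insert _ _)⟩, fun H hH => ?_⟩
  obtain ⟨⟨hH6, hHi⟩, hSH⟩ := hH
  refine Finset.eq_of_subset_of_card_le (fun x hx => ?_) (by
    rw [hH6, Finset.card_insert_of_notMem hBA, Finset.card_insert_of_notMem hAS, hS])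
  by_cases hxS : x ∈ S
  · simp [hxS]
  · have := (hfree x).2 ⟨hxS, hHi.mono (Finset.insert_subset hx hSH)⟩
    simp only [List.mem_cons, List.not_mem_nil, or_false] at this
    rcases this with e | e
    · simp [hA, ← e]
    · simp [hB, ← e]

theorem exists_coll {g : List ℕ} (h : okColl g = true) :
    ∃ σ ∈ setSystemAut plane21, ∀ x : Fin 21, (σ x).val = g.getD x.val 0 := by
  simp only [okColl, Bool.and_eq_true, List.all_eq_true, List.any_eq_true, Nat.beq_eq, Nat.blt_eq,
    List.contains_iff_mem, List.mem_range] at h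
  obtain ⟨⟨⟨hl, hlt⟩, hsur⟩, hlines⟩ := h
  let f : Fin 21 → Fin 21 := fun x => ⟨g[x.val]'(by omega), hlt _ (List.getElem_mem _)⟩
  have hf : Function.Bijective f := by
    refine Finite.surjective_iff_bijective.1 fun y => ?_
    obtain ⟨x, hx, e⟩ := List.getElem_of_mem (hsur y.val y.isLt)
    exact ⟨⟨x, by omega⟩, Fin.ext e⟩
  have hfv : ∀ x : Fin 21, (f x).val = g.getD x.val 0 := fun x =>
    (List.getD_eq_getElem (d := 0) (hn := by omega)).symm
  refine ⟨Equiv.ofBijective f hf, mem_stabilizer_iff.2 (Set.eq_of_subset_of_ncard_le ?_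
    (le_of_eq (Set.ncard_image_of_injective _ (MulAction.injective _)).symm) (Set.toFinite _)), hfv⟩
  rintro _ ⟨_, ⟨l, hll, rfl⟩, rfl⟩
  have hmem := hlines l hll
  rw [lineMasks_eq, List.mem_map] at hmem
  obtain ⟨l', hl', hsub⟩ := hmem
  refine ⟨l', hl', Finset.eq_of_subset_of_card_le (fun y hy => ?_) ?_⟩
  · have hy' := congrArg (Nat.testBit · y.val) hsub
    simp only [testBit_maskL, (mem_setL hl').1 hy, decide_true] at hy'
    obtain ⟨x, hx, e⟩ := List.mem_map.1 (of_decide_eq_true hy'.symm)
    refine Finset.mem_smul_finset.2 ⟨lab x, (mem_setL hll).2 ?_, Fin.ext ?_⟩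
    · rwa [lab_val ((lines_facts l hll).1 x hx)]
    · show (f (lab x)).val = y.val
      rw [hfv, lab_val ((lines_facts l hll).1 x hx), e]
  · show (Equiv.ofBijective f hf • setL l).card ≤ _
    rw [Finset.card_smul_finset, card_setL hll, card_setL hl']

theorem steiner21 {α : Type*} [Fintype α] [DecidableEq α] {L : Set (Finset α)}
    (hL : IsSteinerSystem 2 5 L) (hα : Fintype.card α = 21) : IsSteinerSystem 2 5 plane21 := by
  obtain ⟨e, he⟩ := iso21 hL hα
  have h := steiner_image e.symm hL
  rw [← he, Set.image_image] at h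
  simpa [Finset.image_image] using h

theorem oval_ext (hP : IsSteinerSystem 2 5 plane21) {H : Finset (Fin 21)}
    (hH : H.card = 6 ∧ Indep H) (σ : Equiv.Perm ↥H) :
    ∃! g : Equiv.Perm (Fin 21), g ∈ setSystemAut plane21 ∧ ∀ p : ↥H, g p = σ p := by
  have hm : mask H ∈ ovalData.map Prod.fst := by
    rw [← arcs_ovalData]; exact ((arcs_spec 6).2 _).2 ⟨H, hH.1, hH.2, rfl⟩
  obtain ⟨⟨_, g1, g2⟩, hrow, rfl⟩ := List.mem_map.1 hm
  have hok := List.all_eq_true.1 data_ok _ hrow
  simp only [okRow, Bool.and_eq_true, beq_iff_eq, Nat.beq_eq, List.all_eq_true, List.any_eq_true,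
    Bool.or_eq_true, List.contains_iff_mem, List.mem_range, List.mem_filter, Bool.not_eq_true'] at hok
  obtain ⟨⟨⟨⟨⟨c1, c2⟩, hlen⟩, e1⟩, e2⟩, hsec⟩ := hok
  set h := ptsOf (mask H) with hdef
  have hmemh : ∀ x : Fin 21, x.val ∈ h ↔ x ∈ H := fun x => by
    simp [hdef, ptsOf, testBit_mask, x.isLt]
  have hlth : ∀ i < 6, h.getD i 0 < 21 ∧ h.getD i 0 ∈ h := fun i hi => by
    have hi' : i < h.length := by omega
    rw [List.getD_eq_getElem (hn := hi')]
    exact ⟨List.mem_range.1 (List.mem_of_mem_filter (List.getElem_mem hi')), List.getElem_mem hi'⟩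
  let u : Fin 6 → ↥H := fun i => ⟨lab (h.getD i.val 0), (hmemh _).1 (by
    rw [lab_val (hlth _ i.isLt).1]; exact (hlth _ i.isLt).2)⟩
  have hu : Function.Injective u := fun i j e => by
    have e' := congrArg (fun z : ↥H => z.1.val) e
    simp only [u, lab_val (hlth _ i.isLt).1, lab_val (hlth _ j.isLt).1] at e'
    rw [List.getD_eq_getElem (hn := by omega), List.getD_eq_getElem (hn := by omega),
      List.Nodup.getElem_inj_iff (show h.Nodup from List.nodup_range.filter _)] at e'
    exact Fin.ext e'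
  let E : Fin 6 ≃ ↥H := Equiv.ofBijective u
    ((Fintype.bijective_iff_injective_and_card u).2 ⟨hu, by simp [hH.1]⟩)
  let R : Subgroup (Equiv.Perm (Fin 6)) :=
    { carrier := {π | ∃ g ∈ setSystemAut plane21, ∀ i, g (u i) = (u (π i)).1}
      one_mem' := ⟨1, one_mem _, fun i => rfl⟩
      mul_mem' := by
        rintro π ρ ⟨g, hg, hgi⟩ ⟨k, hk, hki⟩
        exact ⟨g * k, mul_mem hg hk, fun i => by simp [hki, hgi]⟩
      inv_mem' := by
        rintro π ⟨g, hg, hgi⟩
        exact ⟨g⁻¹, inv_mem hg, fun i => Equiv.Perm.inv_eq_iff_eq.2 (by rw [hgi]; simp)⟩ }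
  have get : ∀ (g : List ℕ) (π : Fin 6 → Fin 6) (rhs : List ℕ),
      h.map (fun x => g.getD x 0) = rhs → okColl g = true →
      (∀ i : Fin 6, rhs.getD i.val 0 = h.getD (π i).val 0) →
      ∃ σ ∈ setSystemAut plane21, ∀ i, σ (u i) = (u (π i)).1 := by
    intro g π rhs e hc hπ
    obtain ⟨s, hs, hsv⟩ := exists_coll hc
    refine ⟨s, hs, fun i => Fin.ext ?_⟩
    rw [hsv]
    show g.getD (lab (h.getD i.val 0)).val 0 = (lab (h.getD (π i).val 0)).val
    rw [lab_val (hlth _ i.isLt).1, lab_val (hlth _ (π i).isLt).1, ← hπ i, ← e,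
      List.getD_eq_getElem (l := h) (hn := by omega),
      List.getD_eq_getElem (l := h.map _) (hn := by simp only [List.length_map]; omega), List.getElem_map]
  obtain ⟨a, b, c, d, p, q, hh⟩ : ∃ a b c d p q, h = [a, b, c, d, p, q] := by
    match h, hlen with
    | [a, b, c, d, p, q], _ => exact ⟨a, b, c, d, p, q, rfl⟩
  have m1 : Equiv.swap (0 : Fin 6) 1 ∈ R :=
    get g1 _ _ e1 c1 fun i => by rw [hh]; fin_cases i <;> rfl
  have m2 : finRotate 6 ∈ R :=
    get g2 _ _ e2 c2 fun i => by rw [hh]; fin_cases i <;> rfl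
  have htop : R = ⊤ := by
    rw [eq_top_iff, ← Equiv.Perm.closure_cycle_adjacent_swap (σ := finRotate 6) isCycle_finRotate
      support_finRotate 0, Subgroup.closure_le]
    rintro x (rfl | rfl)
    · exact m2
    · exact m1
  obtain ⟨g, hg, hgi⟩ : ((E.trans σ).trans E.symm) ∈ R := htop ▸ Subgroup.mem_top _
  have hgp : ∀ p : ↥H, g p = σ p := fun p => by
    obtain ⟨i, rfl⟩ := E.surjective p
    have := hgi i
    simp only [Equiv.trans_apply] at this
    exact this.trans (congrArg Subtype.val (E.apply_symm_apply (σ (E i))))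
  refine ⟨g, ⟨hg, hgp⟩, fun g' hg' => ?_⟩
  have hfix : ∀ p ∈ H, (g⁻¹ * g') p = p := fun p hp => by
    rw [Equiv.Perm.mul_apply, hg'.2 ⟨p, hp⟩, ← hgp ⟨p, hp⟩, Equiv.Perm.coe_inv, Equiv.symm_apply_apply]
  have hk : g⁻¹ * g' ∈ setSystemAut plane21 := mul_mem (inv_mem hg) hg'.1
  set k := g⁻¹ * g'
  have hline : ∀ l ∈ lines, atMost1 (maskL l &&& mask H) = false → k • setL l = setL l := by
    intro l hl h2
    rw [← Bool.not_eq_true, atMost1_iff hl, not_le] at h2
    have hm : k • setL l ∈ plane21 := by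
      have := Set.smul_mem_smul_set (a := k) (show setL l ∈ plane21 from ⟨l, hl, rfl⟩)
      rwa [mem_stabilizer_iff.1 hk] at this
    refine unique_block hP hm ⟨l, hl, rfl⟩ ((Nat.succ_le_of_lt h2).trans (Finset.card_le_card fun x hx => ?_))
    obtain ⟨hx1, hx2⟩ := Finset.mem_inter.1 hx
    exact Finset.mem_inter.2 ⟨Finset.mem_smul_finset.2 ⟨x, hx1, hfix x hx2⟩, hx1⟩
  have hk1 : k = 1 := Equiv.ext fun x => by
    rcases hsec x.val x.isLt with hx | ⟨_, ⟨hm1, h1⟩, hx, _, ⟨hm2, h2⟩, e⟩
    · exact hfix x (by simpa [testBit_mask] using hx)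
    · rw [lineMasks_eq, List.mem_map] at hm1 hm2
      obtain ⟨l1, hl1, rfl⟩ := hm1
      obtain ⟨l2, hl2, rfl⟩ := hm2
      have hj : ∀ y : Fin 21, (y.val ∈ l1 ∧ y.val ∈ l2) ↔ y = x := fun y => by
        have := congrArg (Nat.testBit · y.val) e
        simp only [Nat.testBit_and, testBit_maskL, Nat.testBit_two_pow, ← Bool.decide_and,
          decide_eq_decide] at this
        rw [this, Fin.ext_iff, eq_comm]
      obtain ⟨x1, x2⟩ := (hj x).2 rfl
      have m1 : k x ∈ setL l1 := by
        rw [← hline l1 hl1 h1]; exact Finset.smul_mem_smul_finset ((mem_setL hl1).2 x1)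
      have m2 : k x ∈ setL l2 := by
        rw [← hline l2 hl2 h2]; exact Finset.smul_mem_smul_finset ((mem_setL hl2).2 x2)
      exact (hj (k x)).1 ⟨(mem_setL hl1).1 m1, (mem_setL hl2).1 m2⟩
  rw [← mul_inv_cancel_left g g']
  exact (congrArg (g * ·) hk1).trans (mul_one g)

end CfsgLib.Steiner.Plane21
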